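import Cfsg.Agent.Lib.Q4.Sp
import Cfsg.Agent.S2116

/-!
# `P / Z ≅ A₇`: the traces lie in `𝔽_p[β]`, `β² + β + 2 = 0`
-/

set_option autoImplicit false
set_option linter.unusedSectionVars false

namespace Cfsg.Lib.Q4

open scoped MatrixGroups Matrix commutatorElement
open Cfsg.Geo Equiv
open Cfsg.Lib.Q4R (dg sc)

namespace A7

/-- an even permutation -/
def mk (σ : Perm (Fin 7)) (h : Perm.sign σ = 1 := by decide) : alternatingGroup (Fin 7) :=
  ⟨σ, Perm.mem_alternatingGroup.2 h⟩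

/-- `(0 1)(2 3)` -/
def t : alternatingGroup (Fin 7) := mk (swap 0 1 * swap 2 3)
/-- `(0 2)(1 3)` -/
def j : alternatingGroup (Fin 7) := mk (swap 0 2 * swap 1 3)
/-- `(4 5 6)` -/
def s : alternatingGroup (Fin 7) := mk (swap 4 5 * swap 5 6)
/-- `(1 2 3)` -/
def r : alternatingGroup (Fin 7) := mk (swap 1 2 * swap 2 3)
/-- `(0 2 1 3)(4 5)` -/
def g : alternatingGroup (Fin 7) := mk (swap 0 2 * swap 2 1 * swap 1 3 * swap 4 5)
/-- `(0 1 2 3 4 5 6)` -/
def u : alternatingGroup (Fin 7) := mk (swap 0 1 * swap 1 2 * swap 2 3 * swap 3 4 * swap 4 5 * swap 5 6)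

theorem rel : t ^ 2 = 1 ∧ j ^ 2 = 1 ∧ s ^ 3 = 1 ∧ r ^ 3 = 1 ∧ u ^ 7 = 1 ∧ g ^ 2 = t ∧ t * j = j * t ∧
    r * t * r⁻¹ = j ∧ r * j * r⁻¹ = t * j ∧ s * t = t * s ∧ s * j = j * s ∧ s * r = r * s ∧ g * s * g⁻¹ = s⁻¹ ∧
    j * g * j⁻¹ = g⁻¹ ∧ t ≠ 1 ∧ s ≠ 1 ∧ u ≠ 1 ∧ s * g ≠ g * s := by
  refine ⟨?_, ?_, ?_, ?_, ?_, ?_, ?_, ?_, ?_, ?_, ?_, ?_, ?_, ?_, ?_, ?_, ?_, ?_⟩ <;> decide +kernel

theorem u_conj : IsConj u (u ^ 2) :=
  isConj_iff.2 ⟨mk (swap 1 2 * swap 2 4 * swap 3 6 * swap 6 5), by decide +kernel⟩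

theorem cls {a a' x : alternatingGroup (Fin 7)} (o : Perm (Fin 7)) (ho : Perm.sign o = -1)
    (e : o * a'.1 * o⁻¹ = a.1) (h : a.1.cycleType = x.1.cycleType) : IsConj a x ∨ IsConj a' x := by
  obtain ⟨c, hc⟩ := isConj_iff.1 (Perm.isConj_iff_cycleType_eq.2 h)
  rcases Int.units_eq_one_or (Perm.sign c) with h | h
  · exact Or.inl (isConj_iff.2 ⟨mk c h, Subtype.ext hc⟩)
  · refine Or.inr (isConj_iff.2 ⟨mk (c * o) (by rw [map_mul, h, ho]; rfl), Subtype.ext ?_⟩)
    change c * o * a'.1 * (c * o)⁻¹ = x.1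
    rw [← hc, ← e]
    group

theorem types (y : alternatingGroup (Fin 7)) : y.1.cycleType ∈
    ({0, {3}, {3, 3}, {5}, {7}, {2, 2}, {2, 4}, {2, 2, 3}} : Finset (Multiset ℕ)) := by
  have h1 : y.1.cycleType.sum ≤ 7 := y.1.sum_cycleType ▸ (Finset.card_le_univ _).trans (by simp)
  have h2 : ∀ a ∈ y.1.cycleType, 2 ≤ a := fun a => Perm.two_le_of_mem_cycleType
  have h3 := Perm.mem_alternatingGroup.1 y.2
  rw [Perm.sign_of_cycleType, neg_one_pow_eq_one_iff_even (by decide)] at h3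
  have h4 := (Multiset.card_nsmul_le_sum h2).trans h1
  generalize y.1.cycleType = s at *
  have : s.card = 0 ∨ s.card = 1 ∨ s.card = 2 ∨ s.card = 3 := by simp at h4; omega
  rw [Multiset.card_eq_zero, Multiset.card_eq_one, Multiset.card_eq_two, Multiset.card_eq_three] at this
  rcases this with rfl | ⟨a, rfl⟩ | ⟨a, b, rfl⟩ | ⟨a, b, c, rfl⟩
  · simp
  all_goals simp at h1 h2
  · interval_cases a <;> revert h3 <;> decide
  · have : 2 ≤ a ∧ a < 6 ∧ 2 ≤ b ∧ b < 8 - a := by omega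
    obtain ⟨_, _, _, _⟩ := this
    interval_cases a <;> interval_cases b <;> revert h3 <;> decide
  · have : 2 ≤ a ∧ a < 4 ∧ 2 ≤ b ∧ b < 6 - a ∧ 2 ≤ c ∧ c < 8 - a - b := by omega
    obtain ⟨_, _, _, _, _, _⟩ := this
    interval_cases a <;> interval_cases b <;> interval_cases c <;> revert h3 <;> decide

theorem sq_of {G : Type*} [Group G] {a x : G} {n : ℕ} (h : IsConj a x ∨ IsConj a x) (c : G) (e : a ^ n = 1)
    (e' : c * a * c⁻¹ = a ^ 2) : x ^ n = 1 ∧ IsConj x (x ^ 2) :=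
  have h := h.elim id id
  ⟨isConj_one_right.1 (e ▸ h.pow n), h.symm.trans ((isConj_iff.2 ⟨c, e'⟩).trans (h.pow 2))⟩
/-- The cycle type of an even permutation of seven points is `0, {3}, {3,3}, {5}, {7}, {2,2}, {4,2}, {3,2,2}`.  Equal
cycle types give conjugacy in `S₇` (`Perm.isConj_iff_cycleType_eq`); correct an odd conjugating element by an odd
permutation centralising the representative (inverting it, for `u`: `(1 6)(2 5)(3 4)`).  Compare `D3.conj_a6`,
`Sp4O.cases_A7`. -/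
theorem classes (x : alternatingGroup (Fin 7)) : (x ^ 3 = 1 ∧ IsConj x x⁻¹) ∨ (x ^ 5 = 1 ∧ IsConj x (x ^ 2)) ∨
    IsConj u x ∨ IsConj u⁻¹ x ∨ IsConj t x ∨ IsConj g x ∨ IsConj (t * s) x := by
  have h := types x
  have k (h : x ^ 3 = 1 ∧ IsConj x (x ^ 2)) : x ^ 3 = 1 ∧ IsConj x x⁻¹ := ⟨h.1, inv_eq_pow' h.1 ▸ h.2⟩
  simp only [Finset.mem_insert, Finset.mem_singleton] at h
  rcases h with h | h | h | h | h | h | h | h
  · obtain rfl : x = 1 := Subtype.ext (Perm.cycleType_eq_zero.1 h)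
    simp
  · exact Or.inl (k (sq_of (cls (a := s) (swap 0 1) (by decide) (by decide) (.trans (by decide +kernel) h.symm)) g
      (by decide +kernel) (by decide +kernel)))
  · exact Or.inl (k (sq_of (cls (a := r * s) (swap 1 4 * swap 2 5 * swap 3 6) (by decide) (by decide)
      (.trans (by decide +kernel) h.symm)) (mk (swap 1 2 * swap 4 5)) (by decide +kernel) (by decide +kernel)))
  · exact Or.inr (Or.inl (sq_of (cls (a := mk (swap 0 1 * swap 1 2 * swap 2 3 * swap 3 4)) (swap 5 6) (by decide)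
      (by decide) (.trans (by decide +kernel) h.symm)) (mk (swap 1 2 * swap 2 4 * swap 4 3 * swap 5 6)) (by decide +kernel)
      (by decide +kernel)))
  · exact .inr (.inr ((cls (swap 1 6 * swap 2 5 * swap 3 4) (by decide) (by decide)
      (.trans (by decide +kernel) h.symm)).imp_right .inl))
  · exact .inr (.inr (.inr (.inr (.inl (or_self_iff.1
      (cls (swap 0 1) (by decide) (by decide) (.trans (by decide +kernel) h.symm)))))))
  · exact .inr (.inr (.inr (.inr (.inr (.inl (or_self_iff.1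
      (cls (swap 4 5) (by decide) (by decide) (.trans (by decide +kernel) h.symm))))))))
  · exact .inr (.inr (.inr (.inr (.inr (.inr (or_self_iff.1
      (cls (swap 0 1) (by decide) (by decide) (.trans (by decide +kernel) h.symm))))))))

set_option synthInstance.maxSize 1000 in
theorem signs : ∀ (σ : Perm (Fin 4)) (x y : Fin 4 → ℤˣ), (∀ k, y (σ k) = x k) → (∀ k, x (σ k) * y (σ k) = y k) →
    ∏ k, x k = 1 → ¬ (∀ k, x k = x 0) → (∀ k l, x k = x l → y k = y l → k = l) ∧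
      ∃ i, ∀ k ≠ i, ∀ l ≠ i, l = k ∨ l = σ k ∨ l = σ (σ k) := by
  decide +kernel
end A7

variable {F : Type*} [Field F] [Finite F] {P : Subgroup (GL (Fin 4) F)} {π : P →* alternatingGroup (Fin 7)}

namespace Cov

variable (h : Cov P π)
include h

theorem a7_ker {z : P} (hz : π z = 1) : z.1 = 1 ∨ z.1 = -1 :=
  h.ker_sq dvd_rfl (Agent.S2116.result 7 (Or.inr rfl)) hz

theorem a7_pm {x y : P} (e : π x = π y) : y.1 = x.1 ∨ y.1 = -x.1 :=
  (h.a7_ker (z := x⁻¹ * y) (by rw [map_mul, map_inv, e, inv_mul_cancel])).imp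
    (fun k => (inv_mul_eq_one.1 k).symm) fun k => (inv_mul_eq_iff_eq_mul.1 k).trans (mul_neg_one _)

theorem a7_false (h2 : (2 : F) ≠ 0) {I J R S : P} (hI : π I = A7.t) (hJ : π J = A7.j) (hR : π R = A7.r)
    (hS : π S = A7.s) (S3 : S ^ 3 = 1) (I2 : I ^ 2 = 1) (c : Commute I J) (e1 : R * I * R⁻¹ = J)
    (e2 : R * J * R⁻¹ = I * J) : False := by
  obtain ⟨-, -, -, -, -, -, -, -, -, st, sj, sr, gs, -, t1, s1, -⟩ := A7.rel
  obtain ⟨φ, C, hφ⟩ := exists_ch (fun b : Bool => if b then I.1 else J.1) (n := 2)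
    (by rintro (_ | _) (_ | _); exacts [.refl _, c.symm.map P.subtype, c.map P.subtype, .refl _]) h2
    (by rintro (_ | _); exacts [congrArg Subtype.val (show J ^ 2 = 1 by rw [← e1, conj_pow, I2]; simp),
      congrArg Subtype.val I2])
  obtain ⟨a, ha⟩ : ∃ a, φ I = dg a := hφ true
  obtain ⟨b, hb⟩ : ∃ b, φ J = dg b := hφ false
  obtain ⟨σ, -, hσ⟩ := exists_wt (φ R)
  have cj {X Y : P} (e : R * X * R⁻¹ = Y) : φ R * φ X * (φ R)⁻¹ = φ Y := by simp [← e]
  have h3 := hσ a b (by rw [← ha, ← hb, cj e1])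
  have h4 := hσ b (a * b) (by rw [map_mul, ← ha, ← hb, cj e2, Subgroup.coe_mul, map_mul])
  let ι : ℤˣ →* (AlgebraicClosure F)ˣ := Units.map (Int.castRingHom _).toMonoidHom
  have inj : Function.Injective ι := (injective_iff_map_eq_one _).2 fun x e =>
    (Int.units_eq_one_or x).resolve_right fun k => (map_ne_zero (algebraMap F (AlgebraicClosure F))).2 h2 (by
      have := congrArg Units.val e
      simp only [k, ι] at this
      rw [map_ofNat]
      linear_combination (norm := simp) -this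
      ring)
  have h5 : a ^ 2 = 1 := dg_inj (by rw [map_pow, ← ha, ← map_pow, ← SubgroupClass.coe_pow, I2]; simp)
  choose x hx using fun k => show ∃ x, ι x = a k from (sq_eq_one_iff.1 (show (a k : AlgebraicClosure F) ^ 2 = 1 from
    congrArg Units.val (congrFun h5 k))).elim (fun e => ⟨1, Units.ext (by simp [e])⟩) fun e => ⟨-1, Units.ext (by simp [e, ι])⟩
  have hy (k) : ι (x (σ.symm k)) = b k := by rw [hx, ← h3, apply_symm_apply]
  obtain ⟨h6, i, h7⟩ := A7.signs σ x (fun k => x (σ.symm k)) (by simp)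
    (fun k => inj (by rw [map_mul, hx, hy, hy]; exact h4 k)) (inj (Units.ext (by
      simpa [hx, ha, det_dg, h.det] using C.det' I))) fun k => h.not_scalar (hI ▸ t1) ((C.scal _).1
      (mem_scalars_iff'.2 ⟨a 0, by simp [ha, Q4R.dg_val, Matrix.smul_one_eq_diagonal, ← hx, k]⟩))
  have cm {X : P} (e : A7.s * π X = π X * A7.s) : Commute (φ S) (φ X) :=
    ((h.pr.commute S3 (by decide) (hS ▸ e)).map P.subtype).map φ
  have h8 : (φ S).1 = Matrix.diagonal fun k => (φ S).1 k k := Matrix.ext fun k l => by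
    obtain rfl | n := eq_or_ne k l
    · simp
    · rw [Matrix.diagonal_apply_ne _ n]
      exact by_contra fun e => n (h6 k l (inj (by rw [hx, hx, wt_of_comm (a := a) (ha ▸ cm (hI ▸ st)) e]))
        (inj (by rw [hy, hy, wt_of_comm (a := b) (hb ▸ cm (hJ ▸ sj)) e])))
  have h9 (k) : (φ S).1 k k ^ 3 = 1 := by
    have : (φ S).1 ^ 3 = 1 := by rw [← Units.val_pow_eq_pow_val, ← map_pow, ← SubgroupClass.coe_pow, S3]; simp
    rw [h8, Matrix.diagonal_pow] at this
    simpa using congrFun₂ this k k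
  obtain ⟨d, hd⟩ : ∃ d, φ S = dg d := ⟨fun k => .mk0 _ fun e => by simpa [e] using h9 k, Units.ext h8⟩
  have h10 := hσ d d (by rw [← hd, ← (cm (hR ▸ sr)).eq, mul_inv_cancel_right])
  have h11 (k : Fin 3) : d (i.succAbove k) = d (i.succAbove 0) := by
    rcases h7 _ (i.succAbove_ne 0) _ (i.succAbove_ne k) with e | e | e <;> simp only [e, h10]
  simp only [hd, Q4R.dg_val, Matrix.diagonal_apply_eq] at h9
  have h12 := C.det' S
  have h13 := congrArg (algebraMap F (AlgebraicClosure F)) (h.pr.tr_eq S3 (g' := S⁻¹) (by rw [inv_pow, S3, inv_one])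
    (by decide) (isConj_iff.2 ⟨A7.g, by rw [map_inv, hS, gs]⟩))
  rw [hd, det_dg, Fin.prod_univ_succAbove _ i, h.det, map_one] at h12
  rw [← C.tr, ← C.tr, inv_eq_pow' S3, map_pow, map_pow, P.subtype_apply, hd, ← map_pow, tr_dg, tr_dg,
    Fin.sum_univ_succAbove _ i, Fin.sum_univ_succAbove _ i] at h13
  simp only [h11, Pi.pow_apply, Finset.prod_const, Finset.sum_const, Finset.card_univ, Fintype.card_fin, h9,
    mul_one, Units.val_pow_eq_pow_val, nsmul_eq_mul, Nat.cast_ofNat] at h12 h13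
  have h14 : (d (i.succAbove 0) : AlgebraicClosure F) = 1 := sub_eq_zero.1 (eq_zero_of_pow_eq_zero (n := 3) (by
    rw [h12] at h13
    linear_combination h9 (i.succAbove 0) + h13))
  refine s1 (hS ▸ (congrArg π (Subtype.ext (C.inj ?_))).trans (map_one π))
  rw [hd, OneMemClass.coe_one, map_one, ← map_one dg]
  exact congrArg _ (funext fun k => Units.ext (Fin.succAboveCases i h12 (fun k => h11 k ▸ h14) k))
/-- `⁅I, J⁆ = c` is a scalar with `c² = 1`.  Suppose `c = 1`.  Over the algebraic closure take lifts `S, R` of order three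
of `s, r`; they commute, and `S` commutes with `I, J` (`PR.commute`).  Rescale `I` to `I₀` with `I₀² = 1`, put
`J₀ = R I₀ R⁻¹`, `L₀ = R J₀ R⁻¹`; `I₀ J₀ L₀ = ε = ± 1`, and replacing `I₀` by `ε I₀` makes `ε = 1`.  Diagonalise `I₀, J₀`
(`exists_dg`): sign vectors `a, b, a b`, none constant, permuted by `σ` from `exists_wt` for `R`
(`b (σ k) = a k`, `(a b) (σ k) = b k`).  A finite check shows that the four pairs `(a k, b k)` are distinct, so `S` is
diagonal (`wt_of_comm`), `S = dg d` with `d (σ k) = d k`, where `σ` is a 3-cycle on the three non-trivial pairs: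
`d = (μ, α, α, α)`, `α ^ 3 = 1`, `μ = 1` by the determinant.  `S ~ S⁻¹` gives `3 α = 3 α²`; in any case `α = 1`, `S = 1`. -/
theorem a7_anti (h2 : (2 : F) ≠ 0) {I J : P} (hI : π I = A7.t) (hJ : π J = A7.j) : J.1 * I.1 * J.1⁻¹ = -I.1 := by
  obtain ⟨t2, -, s3, r3, -, -, tj, rt, rj, -⟩ := A7.rel
  refine (h.a7_pm (y := J * I * J⁻¹) (by simp [hI, hJ, ← tj])).resolve_left fun e => ?_
  obtain ⟨R, hR⟩ := h.surj A7.r
  obtain ⟨S, hS, S3⟩ := h.pr.exists_lift s3 (by decide)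
  have c : Commute I (R * I * R⁻¹) := Subtype.ext (by
    have : J.1 * I.1 = I.1 * J.1 := mul_inv_eq_iff_eq_mul.1 e
    rcases h.a7_pm (x := J) (y := R * I * R⁻¹) (by simp [hI, hJ, hR, rt]) with k | k <;>
      simp only [P.coe_mul I, P.coe_mul _ I, k, this, neg_mul, mul_neg])
  obtain ⟨z, hz⟩ : ∃ z, R * (R * I * R⁻¹) * R⁻¹ = z * (I * (R * I * R⁻¹)) := ⟨_, (inv_mul_cancel_right _ _).symm⟩
  have z1 : π z = 1 := by simpa [hI, hR, rt, rj] using congrArg π hz
  have z2 : z * z = 1 := Subtype.ext (by rcases h.a7_ker z1 with k | k <;> simp [k])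
  have zc := h.pr.comm z1
  have i1 : π (I ^ 2) = 1 := by rw [map_pow, hI, t2]
  have ic (g : P) : (g * I * g⁻¹) ^ 2 = I ^ 2 := by rw [conj_pow, h.pr.comm i1, mul_inv_cancel_right]
  have I2 : I ^ 2 = 1 := by
    have := ic (R * R)
    rw [show R * R * I * (R * R)⁻¹ = R * (R * I * R⁻¹) * R⁻¹ by group, hz, (show Commute z _ from (zc _).symm).mul_pow,
      c.mul_pow, ic, sq z, z2, one_mul] at this
    exact mul_eq_left.1 this
  have cz (g : P) : R * (z * g) * R⁻¹ = z * (R * g * R⁻¹) := by rw [← mul_assoc, zc R]; group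
  refine h.a7_false h2 (I := z * I) (J := z * (R * I * R⁻¹)) (by simp [z1, hI]) (by simp [z1, hI, hR, rt]) hR hS S3
    (by rw [(show Commute z _ from (zc _).symm).mul_pow, I2, sq, z2, one_mul])
    (((Commute.refl z).mul_right (zc _).symm).mul_left ((show Commute I z from zc I).mul_right c)) (cz I) ?_
  rw [cz, hz, mul_assoc z I, ← mul_assoc I z, zc I, mul_assoc z I]

theorem a7_three {X : P} (h3 : X ^ 3 = 1) (c : IsConj (π X) (π X)⁻¹) : ∃ n : ℤ, tr X.1 = n ∧ tr X.1⁻¹ = n := by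
  have e : tr X.1 = tr X.1⁻¹ := h.pr.tr_eq h3 (g' := X⁻¹) (by rw [inv_pow, h3, inv_one]) (by decide) (map_inv π X ▸ c)
  rw [← e]
  rcases tr3 (h.det X) (congrArg Subtype.val h3) e.symm with k | k | k
  exacts [⟨4, by simp [k]⟩, ⟨1, by simp [k]⟩, ⟨-2, by simp [k]⟩]

theorem a7_four (h2 : (2 : F) ≠ 0) {G : P} (hG : π G = A7.g) : tr G.1 = 0 ∧ tr G.1⁻¹ = 0 := by
  obtain ⟨-, -, s3, -, -, g2, -, -, -, st, -, -, -, jg, -, -, -, sg⟩ := A7.rel
  obtain ⟨J, hJ⟩ := h.surj A7.j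
  obtain ⟨S, hS, S3⟩ := h.pr.exists_lift s3 (by decide)
  have hI : π (G ^ 2) = A7.t := by rw [map_pow, hG, g2]
  obtain ⟨k, k4, hk⟩ := h.pr.exists_smul (g := G⁻¹) (g' := J * G * J⁻¹) (by simp [hG, hJ, jg])
  have h1 := congrArg Subtype.val ((pow_mul G 4 4).trans (h.pr.pow_card (by rw [map_pow, hG]; decide +kernel)))
  have h3 := (h.pr.commute (g' := G ^ 2) S3 (by decide) (by rw [hS, hI]; exact st)).map P.subtype
  have h4 := h.a7_anti h2 hI hJ
  simp only [P.subtype_apply, SubgroupClass.coe_pow] at hk h1 h3 h4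
  have k0 := tr_of_four h2 (n := 4) h1 h3
    (fun e => sg (by rw [← hS, ← hG, ← map_mul, ← map_mul, show S * G = G * S from Subtype.ext e])) hk h4
  refine ⟨k0, (mul_eq_zero.1 ((Matrix.trace_smul k _).symm.trans ?_)).resolve_left fun e => by simp [e] at k4⟩
  exact (congrArg Matrix.trace hk).symm.trans ((tr_conj G.1 J.1).trans k0)
/-- `β = tr U - 1` for the lift `U` of order seven of `A7.u` (`tr7`).  In characteristic two `π` is bijective and
`x⁴ ~ x⁸` for all `x` (`A7.classes`), so `τ⁴ = τ⁸` (`tr_pow_char_pow`) and all traces are `0` or `1`; `β ∈ {0, 1}`, and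
`R` contains `(0, 1)` and `(1, 0)`.  In odd characteristic `ker π ≤ ± 1` (`ker_sq`, `S2116`), so it is enough to treat one
lift of one element of each class: `tr3`, `tr5` (integers; also `tr x⁻¹ = tr x`), `(tr U, tr U⁻¹) = (1 + β, 1 + (-1 - β))`;
lifts of `t` and `t s` and their inverses are negated by conjugation with `J` (`a7_anti`, `tr_eq_zero`); lifts `G` of
`A7.g`: `tr_of_four` with `S` and `J`, and `J G J⁻¹ = c G⁻¹` gives `tr G⁻¹ = 0`. -/
theorem a7 : ∃ β : F, β ^ 2 + β + 2 = 0 ∧ TrIn P β (-1 - β) := by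
  obtain ⟨-, -, s3, -, u7, g2, -, -, -, -, sj, -, -, -, -, -, u1, -⟩ := A7.rel
  obtain ⟨U, hU, U7⟩ := h.pr.exists_lift u7 (by decide)
  have sqc {X : P} {n : ℕ} (e : X ^ n = 1) (hn : n.Coprime (Fintype.card (Fin 4))) (c : IsConj (π X) (π X ^ 2)) :
      IsConj X.1 (X.1 ^ 2) := by
    have := P.subtype.map_isConj
      (h.pr.isConj e (g' := X ^ 2) (by rw [pow_right_comm, e, one_pow]) hn (map_pow π X 2 ▸ c))
    rwa [map_pow] at this
  obtain ⟨b1, b2⟩ := tr7 (g := U.1) (congrArg Subtype.val U7) (fun e => u1 (by rw [← hU, show U = 1 from Subtype.ext e, map_one]))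
    (sqc U7 (by decide) (hU ▸ A7.u_conj))
  refine ⟨_, b1, fun R r1 r2 x hx => ?_⟩
  have key {X y} (e : π X = y) (c : IsConj y (π ⟨x, hx⟩)) (k : (tr X.1, tr X.1⁻¹) ∈ R) : (tr x, tr x⁻¹) ∈ R := by
    obtain ⟨c, hc⟩ := isConj_iff.1 c
    obtain ⟨c, rfl⟩ := h.surj c
    rw [← tr_conj _ c.1, ← tr_conj X.1⁻¹ c.1, ← conj_inv] at k
    obtain e | e := h.a7_pm (x := c * X * c⁻¹) (by rw [← hc, ← e, map_mul, map_mul, map_inv])
    · exact (show x = _ from e) ▸ k
    · convert R.neg_mem k using 1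
      simp [show x = _ from e, tr]
  have int {X : P} (k : ∃ n : ℤ, tr X.1 = n ∧ tr X.1⁻¹ = n) : (tr X.1, tr X.1⁻¹) ∈ R :=
    let ⟨n, e, e'⟩ := k
    by rw [e, e']; exact intCast_mem R n
  have rest {y} (c : IsConj y (π ⟨x, hx⟩)) (y3 : (y ^ 4) ^ 3 = 1) (yc : IsConj (y ^ 4) (y ^ 4)⁻¹)
      (k : (2 : F) ≠ 0 → ∃ X, π X = y ∧ tr X.1 = 0 ∧ tr X.1⁻¹ = 0) : (tr x, tr x⁻¹) ∈ R := by
    by_cases h2 : (2 : F) = 0
    · have := (CharP.charP_iff_prime_eq_zero (R := F) Nat.prime_two).2 h2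
      obtain ⟨X, rfl⟩ := h.surj y
      obtain ⟨n, e, e'⟩ := h.a7_three (X := X ^ 4) (h.pr.bij.1 (by simp only [map_pow, y3, map_one]))
        (map_pow π X 4 ▸ yc)
      have i (Y : GL (Fin 4) F) (e : tr (Y ^ 4 : GL (Fin 4) F) = n) : tr Y = n := (iterateFrobenius F 2 2).injective (by
        rw [map_intCast, iterateFrobenius_def, ← tr_pow_char_pow, ← e]; rfl)
      exact key rfl c (int ⟨n, i _ e, i _ (inv_pow X.1 4 ▸ e')⟩)
    · obtain ⟨X, e, k⟩ := k h2
      exact key e c (int ⟨0, by simpa using k⟩)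
  obtain ⟨J, hJ⟩ := h.surj A7.j
  obtain ⟨G, hG⟩ := h.surj A7.g
  obtain ⟨S, hS, S3⟩ := h.pr.exists_lift s3 (by decide)
  have hI : π (G ^ 2) = A7.t := by rw [map_pow, hG, g2]
  have anti (h2 : (2 : F) ≠ 0) {X : GL (Fin 4) F} (e : J.1 * X * J.1⁻¹ = -X) : tr X = 0 ∧ tr X⁻¹ = 0 :=
    have k {X : GL (Fin 4) F} (e : J.1 * X * J.1⁻¹ = -X) : tr X = 0 :=
      tr_eq_zero (c := -1) (by rw [e]; simp) fun e => h2 (by linear_combination -e)
    ⟨k e, k (by rw [← conj_inv, e, neg_inv])⟩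
  rcases A7.classes (π ⟨x, hx⟩) with ⟨e, c⟩ | ⟨e, c⟩ | c | c | c | c | c
  · obtain ⟨X, hX, X3⟩ := h.pr.exists_lift e (by decide)
    exact key hX (.refl _) (int (h.a7_three X3 (hX ▸ c)))
  · obtain ⟨X, hX, X5⟩ := h.pr.exists_lift e (by decide)
    have k : tr X.1 = tr X.1⁻¹ := h.pr.tr_eq X5 (g' := X⁻¹) (by rw [inv_pow, X5, inv_one]) (by decide) (by
      rw [map_inv, hX, inv_eq_pow' e]
      exact c.trans (pow_mul (π ⟨x, hx⟩) 2 2 ▸ c.pow 2))
    refine key hX (.refl _) (int ?_)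
    rw [← k]
    rcases tr5 (congrArg Subtype.val X5) (sqc X5 (by decide) (hX ▸ c)) with k | k
    exacts [⟨4, by simpa using k⟩, ⟨-1, by simpa using k⟩]
  · refine key hU c ?_
    convert R.add_mem R.one_mem r1 using 1
    exact Prod.ext (by simp) (by simp [b2]; ring)
  · refine key (hU ▸ map_inv π U) c ?_
    convert R.add_mem R.one_mem r2 using 1
    exact Prod.ext (by simp [b2]; ring) (by simp)
  · exact rest c (by decide +kernel) (isConj_iff.2 ⟨1, by decide +kernel⟩) fun h2 =>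
      ⟨_, hI, anti h2 (h.a7_anti h2 hI hJ)⟩
  · exact rest c (by decide +kernel) (isConj_iff.2 ⟨1, by decide +kernel⟩) fun h2 => ⟨G, hG, h.a7_four h2 hG⟩
  · refine rest c (by decide +kernel) (isConj_iff.2 ⟨A7.g, by decide +kernel⟩) fun h2 =>
      ⟨G ^ 2 * S, by rw [map_mul, hI, hS], anti h2 ?_⟩
    have : S.1 * J.1 = J.1 * S.1 := ((h.pr.commute (g' := J) S3 (by decide) (by rw [hS, hJ]; exact sj)).map P.subtype :)
    rw [Subgroup.coe_mul, ← neg_mul, ← h.a7_anti h2 hI hJ, mul_inv_eq_iff_eq_mul, mul_assoc _ S.1, this]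
    group

end Cov

end Cfsg.Lib.Q4
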