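import Cfsg.Agent.Lib.Q4.Sp
import Cfsg.Agent.Lib.NG.Real
import Cfsg.Agent.Lib.Dim3.L2
import Cfsg.Agent.Lib.PSL2.SmallIso
import Cfsg.Agent.S2086
import Cfsg.Agent.S2116

/-!
# `P / Z ≅ L₂(r)`, `r` odd
-/

set_option autoImplicit false
set_option linter.unusedSectionVars false

namespace Cfsg.Lib.Q4

open scoped MatrixGroups Matrix commutatorElement
open Cfsg.Geo Equiv Cfsg.Lib.PSL2
open Cfsg.Lib.Q4R (dg sc)

variable {F : Type*} [Field F] [Finite F] {P : Subgroup (GL (Fin 4) F)} {K : Type} [Field K] [Fintype K]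
  {π : P →* PSL(2, K)}

namespace Cov

variable (h : Cov P π) (ho : Odd (Fintype.card K)) (h5 : 5 ≤ Fintype.card K)
include h ho h5

/-- `ker_sq` with `S2086`; for `|K| = 9` compose with `PSL2.equiv_psl_alt_six` and use `S2116`. -/
theorem l2_ker {z : P} (hz : π z = 1) : z.1 = 1 ∨ z.1 = -1 := by
  by_cases h9 : Fintype.card K = 9
  · obtain ⟨e⟩ := PSL2.equiv_psl_alt_six (F := K) (by rw [Nat.card_eq_fintype_card, h9])
    exact (h.comp e).ker_sq (dvd_refl 6) (Agent.S2116.result 6 (.inl rfl)) (by simp [hz])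
  · refine h.ker_sq (m := Nat.gcd 2 (Fintype.card K - 1)) ((Nat.gcd_dvd_left _ _).trans (by norm_num))
      (Agent.S2086.result rfl 2 le_rfl (fun _ => by omega) ?_) hz
    simp only [Set.mem_insert_iff, Set.mem_singleton_iff, Prod.mk.injEq]
    omega

/-- All involutions of `L₂(K)` are conjugate, and `(± s t s⁻¹)² = s t² s⁻¹ = t²` as `t²` is central. -/
theorem l2_sq {s t : P} (hs : π s ^ 2 = 1) (hs1 : π s ≠ 1) (ht : π t ^ 2 = 1) (ht1 : π t ≠ 1) : s ^ 2 = t ^ 2 := by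
  obtain ⟨c, hc⟩ := isConj_iff.1 (PSL2.isConj_psl_of_orderOf_two (orderOf_eq_prime ht ht1) (orderOf_eq_prime hs hs1))
  obtain ⟨c, rfl⟩ := h.surj c
  have hz : π (s * (c * t * c⁻¹)⁻¹) = 1 := by simp only [map_mul, map_inv, hc, mul_inv_cancel]
  have z2 : (s * (c * t * c⁻¹)⁻¹) ^ 2 = 1 := Subtype.ext (by
    rw [Subgroup.coe_pow]
    rcases h.l2_ker ho h5 hz with e | e <;> rw [e] <;> simp)
  have := (show Commute (c * t * c⁻¹) (s * (c * t * c⁻¹)⁻¹) from h.pr.comm hz _).symm.mul_pow 2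
  rw [inv_mul_cancel_right, z2, one_mul, conj_pow, h.pr.comm (z := t ^ 2) (by rw [map_pow, ht]) c] at this
  rw [this, mul_inv_cancel_right]

/-- If `π g ^ 2 = 1`: `g² = ± 1`; `g² = 1` gives `g⁻¹ = g`; `π g = 1` gives `g = ± 1`; otherwise `tr_of_sq` for `g` and
`g⁻¹` (if `2 = 0` then `-1 = 1`).  If `π g ^ 2 ≠ 1`: `t₀ ≠ 1`, and for a lift `t` the element `t g` lifts an
involution, so `t g t g = t t`, `g⁻¹ = t g t⁻¹`. -/
theorem l2_real {g : P} {t₀ : PSL(2, K)} (h1 : t₀ * t₀ = 1) (h2 : t₀ * π g * t₀⁻¹ = (π g)⁻¹) :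
    tr g.1⁻¹ = tr g.1 := by
  by_cases g2 : π g ^ 2 = 1
  · have k1 : g.1 ^ 2 = 1 → tr g.1⁻¹ = tr g.1 := fun e => by
      rw [inv_eq_of_mul_eq_one_right (by rw [← sq, e])]
    rcases h.l2_ker ho h5 (z := g ^ 2) (by rw [map_pow, g2]) with e | e
    · exact k1 e
    have e' : g.1 ^ 2 = -1 := e
    have i : tr g.1⁻¹ = -tr g.1 := by
      rw [inv_eq_of_mul_eq_one_right (b := -g.1) (by rw [mul_neg, ← sq, e', neg_neg])]
      simp [tr]
    by_cases q : (2 : F) = 0
    · rw [i]; linear_combination -tr g.1 * q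
    by_cases s : π g = 1
    · exact k1 (by rcases h.l2_ker ho h5 s with e | e <;> rw [e] <;> simp)
    rw [i, tr_of_sq q (h.det g) e' (h.not_scalar s), neg_zero]
  obtain ⟨t, rfl⟩ := h.surj t₀
  have i : (π t)⁻¹ = π t := inv_eq_of_mul_eq_one_right h1
  have := h.l2_sq ho h5 (s := t * g) (t := t) (by
      rw [map_mul, sq, ← mul_assoc]; nth_rw 2 [← i]; rw [h2, inv_mul_cancel])
    (fun e => g2 (by
      rw [map_mul, mul_eq_one_iff_inv_eq, i] at e
      rw [← e, sq, h1]))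
    (by rw [sq, h1]) fun e => g2 (by
      rw [e, one_mul, inv_one, mul_one] at h2
      rw [sq]; nth_rw 1 [h2]; rw [inv_mul_cancel])
  have e : g⁻¹ = t * g * t⁻¹ := by
    rw [sq, sq, mul_assoc, mul_right_inj] at this
    rw [eq_mul_inv_iff_mul_eq, inv_mul_eq_iff_eq_mul, this]
  rw [show g.1⁻¹ = t.1 * g.1 * t.1⁻¹ from congrArg Subtype.val e, tr_conj]

/-- Let `l = char K`.  An element `x = π g` has order prime to `l` (`NG.sreal_psl`, `l2_real`) or `x ^ l = 1`; then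
`g = ± u` with `u ^ l = 1`.  If `l = p`: `tr_unip`.  If `-1` is a square in `K`: `Dim3.psl_real` and `PR.tr_eq`.  Otherwise
`Ob.wt` (`h.pr.ob p (nt_of nt)`) for `A = unipL inf` and the image of `diag(a, a⁻¹)`, `a` a generator of `Kˣ`, gives
`a ^ 6 = 1` or `a ^ 8 = 1` (as in `Dim3.card_of_weight`); with `|K| % 4 = 3` this leaves `|K| = 7`. -/
theorem l2 (p : ℕ) [Fact p.Prime] [CharP F p] (nt : ¬ Q4R.HasTv P) : Real P ∨ (Fintype.card K = 7 ∧ p ≠ 7) := by
  obtain ⟨l, _⟩ := CharP.exists K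
  have hl : Fact l.Prime := ⟨CharP.char_is_prime K l⟩
  have hd := char_dvd_card (F := K) l
  rw [Nat.card_eq_fintype_card] at hd
  have lo : Odd l := ho.of_dvd_nat hd
  have l4 : Nat.Coprime l (Fintype.card (Fin 4)) := by
    rw [Fintype.card_fin]; exact (Nat.coprime_two_right.2 lo).pow_right 2
  have hu : ∀ {s : PSL(2, K)} {x}, s ∈ unipL x → s ^ l = 1 := fun hs =>
    toP_injective (by simpa only [map_pow, map_one] using pow_char_of_mem_unip l hs)
  have key : (∀ u : P, u ^ l = 1 → tr u.1⁻¹ = tr u.1) → Real P := fun k x hx => by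
    by_cases e : π ⟨x, hx⟩ = 1
    · exact h.l2_real ho h5 (g := ⟨x, hx⟩) (t₀ := 1) (by simp) (by simp [e])
    rcases exists_unipL_or_torusL (AlgebraicClosure K) e with ⟨y, hy⟩ | ⟨a, b, m, h1, h2⟩
    · obtain ⟨u, e1, e2⟩ := h.pr.exists_lift (hu hy) l4
      have := h.l2_ker ho h5 (z := ⟨x, hx⟩ * u⁻¹) (by rw [map_mul, map_inv, e1, mul_inv_cancel])
      simp only [Subgroup.coe_mul, Subgroup.coe_inv, mul_inv_eq_iff_eq_mul, one_mul, neg_mul] at this
      rcases this with rfl | rfl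
      · exact k u e2
      · have := k u e2
        rw [inv_neg]
        simpa [tr] using this
    · obtain ⟨s, h3, h4⟩ := Set.not_subset.1 h1.not_dihL_le_torusL
      exact h.l2_real ho h5 (g := ⟨x, hx⟩) (mul_self_dihL h1.ne h3 h4) (conj_eq_inv_dihL h1.ne h3 h4 h2)
  by_cases hlp : l = p
  · subst hlp
    refine .inl (key fun u hu => ?_)
    have : u.1 ^ l ^ 1 = 1 := by rw [pow_one]; exact congrArg Subtype.val hu
    rw [tr_unip l this, tr_unip l (g := u.1⁻¹) (n := 1) (by rw [inv_pow, this, inv_one])]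
  by_cases hs : IsSquare (-1 : K)
  · exact .inl (key fun u hu => (h.pr.tr_eq hu (g' := u⁻¹) (by rw [inv_pow, hu, inv_one]) l4
      (by rw [map_inv]; exact Dim3.psl_real hs _)).symm)
  rw [FiniteField.isSquare_neg_one_iff, not_not] at hs
  obtain ⟨a, ha⟩ := IsCyclic.exists_ofOrder_eq_natCard (α := Kˣ)
  obtain ⟨s, e1⟩ := (aff_mem_pslSub_iff (a ^ 2) (0 : K)).2 ⟨a, by simp [pow_two]⟩
  obtain ⟨x, hx⟩ := (aff_mem_pslSub_iff 1 (1 : K)).2 (by simp)
  have hx' : x ∈ unipL inf := by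
    rw [mem_unipL, show toP x = _ from hx]
    exact aff_mem_unip_inf.2 rfl
  have k : ∀ n, Commute (s ^ n) x → Fintype.card K - 1 ∣ 2 * n := fun n hn => by
    have := congrArg toP hn.eq
    simp only [map_mul, map_pow] at this
    rw [show toP x = _ from hx, show toP s = _ from e1, aff_zero_pow, aff_mul, aff_mul, aff_inj, ← pow_mul] at this
    rw [← Nat.card_eq_fintype_card, ← Nat.card_units, ← ha, orderOf_dvd_iff_pow_eq_one]
    exact Units.ext (by simpa using this.2)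
  have := ((h.pr.ob p (nt_of nt)).wt (unipL (inf : P1 K)) l s
    (fun a ha b hb => (commute_of_mem_unip ha hb).of_map toP_injective) lo
    (fun e => hlp ((Nat.prime_dvd_prime_iff_eq Fact.out hl.out).1 e).symm) (fun a ha => hu ha) fun y hy => by
      obtain ⟨b, hb⟩ := mem_unip_inf.1 hy
      rw [SetLike.mem_coe, mem_unipL]
      simp only [map_mul, map_inv]
      rw [hb, show toP s = _ from e1, aff_conj_aff_one]
      exact aff_mem_unip_inf.2 rfl).imp (fun c => Nat.le_of_dvd (by norm_num) (k 3 (c x hx')))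
    fun c => Nat.le_of_dvd (by norm_num) (k 4 (c x hx'))
  have h7 : Fintype.card K = 7 := by omega
  refine .inr ⟨h7, fun e => hlp ?_⟩
  rw [e, ← Nat.prime_dvd_prime_iff_eq hl.out (by norm_num), ← h7]
  exact hd

end Cov

end Cfsg.Lib.Q4
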