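import Cfsg.Agent.Lib.Q4.Sp
import Cfsg.Agent.Lib.D3.L27
import Cfsg.Agent.Lib.Asch.Amb

/-!
# `SL₂(7) < 2·A₇ < SL₄`: `L₂(7)` does not give a maximal subgroup
-/

set_option autoImplicit false
set_option linter.unusedSectionVars false

namespace Cfsg.Lib.Q4

open scoped MatrixGroups Matrix commutatorElement Pointwise
open Cfsg.Geo Equiv
open Cfsg.Lib.Q4R (dg sc)

variable {F : Type*} [Field F]

namespace S7

/-- `T² = -1` -/
def T : Matrix (Fin 4) (Fin 4) F := !![0, 1, 0, 0; -1, 0, 0, 0; 0, 0, 0, -1; 0, 0, 1, 0]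
/-- `Y³ = 1` -/
def Y (β : F) : Matrix (Fin 4) (Fin 4) F := !![0, 0, 1, -1 - β; 1, 0, 0, 1; 0, 1, 0, β; 0, 0, 0, 1]
/-- `J = Y T Y Y T Y T Y Y` -/
def J (β : F) : Matrix (Fin 4) (Fin 4) F :=
  !![1, β, -1 - β, -1; β, -1, 1, -1 - β; -1 - β, 1, β, 1; -1, -1 - β, 1, -β]
/-- `2 y₀ = -1 + T + J + T J` -/
def Z (β : F) : Matrix (Fin 4) (Fin 4) F :=
  !![β, β, -β, -2 - β; -2 + β, -2 - β, 2 + β, -β; -β, 2 + β, -2 + β, β; -2 - β, -β, 2 + β, -β]
/-- a skew matrix -/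
def sk (a b c d e f : F) : Matrix (Fin 4) (Fin 4) F := !![0, a, b, c; -a, 0, d, e; -b, -d, 0, f; -c, -e, -f, 0]
/-- the seven alternating forms permuted by `2·A₇` -/
def B (β : F) : Fin 7 → Matrix (Fin 4) (Fin 4) F :=
  ![sk β (-3) β (-1 - β) (-1 - β) (1 + β), sk β (-β) (-1 - β) (-1 - β) β (-3),
    sk (-1 - β) (-β) β β β (1 + β), sk β (1 + β) (-1 - β) β 3 (1 + β),
    sk (-1 - β) (-β) (-1 - β) 3 (-1 - β) (-β), sk (-1 - β) (1 + β) 3 (-1 - β) β (-β),
    sk 3 (1 + β) β β (-1 - β) (-β)]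

theorem mul_f4 (a00 a01 a02 a03 a10 a11 a12 a13 a20 a21 a22 a23 a30 a31 a32 a33
    b00 b01 b02 b03 b10 b11 b12 b13 b20 b21 b22 b23 b30 b31 b32 b33 : F) :
    !![a00, a01, a02, a03; a10, a11, a12, a13; a20, a21, a22, a23; a30, a31, a32, a33] *
      !![b00, b01, b02, b03; b10, b11, b12, b13; b20, b21, b22, b23; b30, b31, b32, b33] =
    !![a00 * b00 + a01 * b10 + a02 * b20 + a03 * b30,
      a00 * b01 + a01 * b11 + a02 * b21 + a03 * b31,
      a00 * b02 + a01 * b12 + a02 * b22 + a03 * b32,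
      a00 * b03 + a01 * b13 + a02 * b23 + a03 * b33;
      a10 * b00 + a11 * b10 + a12 * b20 + a13 * b30,
      a10 * b01 + a11 * b11 + a12 * b21 + a13 * b31,
      a10 * b02 + a11 * b12 + a12 * b22 + a13 * b32,
      a10 * b03 + a11 * b13 + a12 * b23 + a13 * b33;
      a20 * b00 + a21 * b10 + a22 * b20 + a23 * b30,
      a20 * b01 + a21 * b11 + a22 * b21 + a23 * b31,
      a20 * b02 + a21 * b12 + a22 * b22 + a23 * b32,
      a20 * b03 + a21 * b13 + a22 * b23 + a23 * b33;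
      a30 * b00 + a31 * b10 + a32 * b20 + a33 * b30,
      a30 * b01 + a31 * b11 + a32 * b21 + a33 * b31,
      a30 * b02 + a31 * b12 + a32 * b22 + a33 * b32,
      a30 * b03 + a31 * b13 + a32 * b23 + a33 * b33] := by
  ext i j
  fin_cases i <;> fin_cases j <;> simp [Matrix.mul_apply, Fin.sum_univ_four]

theorem ext4 {M N : Matrix (Fin 4) (Fin 4) F} (h : (M 0 0 = N 0 0 ∧ M 0 1 = N 0 1 ∧ M 0 2 = N 0 2 ∧ M 0 3 = N 0 3) ∧
    (M 1 0 = N 1 0 ∧ M 1 1 = N 1 1 ∧ M 1 2 = N 1 2 ∧ M 1 3 = N 1 3) ∧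
    (M 2 0 = N 2 0 ∧ M 2 1 = N 2 1 ∧ M 2 2 = N 2 2 ∧ M 2 3 = N 2 3) ∧
    M 3 0 = N 3 0 ∧ M 3 1 = N 3 1 ∧ M 3 2 = N 3 2 ∧ M 3 3 = N 3 3) : M = N :=
  Matrix.ext (by simp only [Fin.forall_fin_succ, and_true, IsEmpty.forall_iff]; exact h)

theorem det_f4 (a00 a01 a02 a03 a10 a11 a12 a13 a20 a21 a22 a23 a30 a31 a32 a33 : F) :
    Matrix.det !![a00, a01, a02, a03; a10, a11, a12, a13; a20, a21, a22, a23; a30, a31, a32, a33] =
      a00 * a11 * a22 * a33 - a00 * a11 * a23 * a32 - a00 * a12 * a21 * a33 + a00 * a12 * a23 * a31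
      + a00 * a13 * a21 * a32 - a00 * a13 * a22 * a31 - a01 * a10 * a22 * a33 + a01 * a10 * a23 * a32
      + a01 * a12 * a20 * a33 - a01 * a12 * a23 * a30 - a01 * a13 * a20 * a32 + a01 * a13 * a22 * a30
      + a02 * a10 * a21 * a33 - a02 * a10 * a23 * a31 - a02 * a11 * a20 * a33 + a02 * a11 * a23 * a30
      + a02 * a13 * a20 * a31 - a02 * a13 * a21 * a30 - a03 * a10 * a21 * a32 + a03 * a10 * a22 * a31
      + a03 * a11 * a20 * a32 - a03 * a11 * a22 * a30 - a03 * a12 * a20 * a31 + a03 * a12 * a21 * a30 := by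
  simp [Matrix.det_succ_row_zero, Fin.sum_univ_succ, Fin.succAbove]
  ring

/-- entry `(i, j)` of `gᵀ (sk a b c d e f) g` -/
def mn (g : Matrix (Fin 4) (Fin 4) F) (a b c d e f : F) (i j : Fin 4) : F :=
  a * (g 0 i * g 1 j - g 1 i * g 0 j) + b * (g 0 i * g 2 j - g 2 i * g 0 j) + c * (g 0 i * g 3 j - g 3 i * g 0 j) +
    d * (g 1 i * g 2 j - g 2 i * g 1 j) + e * (g 1 i * g 3 j - g 3 i * g 1 j) + f * (g 2 i * g 3 j - g 3 i * g 2 j)

theorem sk_apply (g : Matrix (Fin 4) (Fin 4) F) (a b c d e f : F) (i j : Fin 4) :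
    (gᵀ * sk a b c d e f * g) i j = mn g a b c d e f i j := by
  simp [sk, mn, Matrix.mul_apply, Fin.sum_univ_four]; ring

theorem sk_act (g : Matrix (Fin 4) (Fin 4) F) (a b c d e f : F) : gᵀ * sk a b c d e f * g =
    sk (mn g a b c d e f 0 1) (mn g a b c d e f 0 2) (mn g a b c d e f 0 3) (mn g a b c d e f 1 2)
      (mn g a b c d e f 1 3) (mn g a b c d e f 2 3) := by
  ext i j
  rw [sk_apply]
  fin_cases i <;> fin_cases j <;> simp [sk, mn] <;> ring

theorem sk_smul (x a b c d e f : F) :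
    x • sk a b c d e f = sk (x * a) (x * b) (x * c) (x * d) (x * e) (x * f) := by
  ext i j
  fin_cases i <;> fin_cases j <;> simp [sk]

theorem sk_add (a b c d e f a' b' c' d' e' f' : F) : sk a b c d e f + sk a' b' c' d' e' f' =
    sk (a + a') (b + b') (c + c') (d + d') (e + e') (f + f') := by
  ext i j
  fin_cases i <;> fin_cases j <;> simp [sk] <;> ring

variable {β : F} (h : β ^ 2 + β + 2 = 0)
include h

theorem rel1 : Y β * T * Y β * Y β * T * Y β * T * Y β * Y β = J β := by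
  simp only [Y, T, J, mul_f4, mul_zero, zero_mul, one_mul, mul_one, add_zero, zero_add]
  apply ext4
  simp only [Matrix.of_apply, Matrix.cons_val]
  refine ⟨⟨?_, ?_, ?_, ?_⟩, ⟨?_, ?_, ?_, ?_⟩, ⟨?_, ?_, ?_, ?_⟩, ?_, ?_, ?_, ?_⟩ <;> grind

theorem rel2 : J β * J β = -1 := by
  simp only [J, mul_f4]
  apply ext4
  simp [Matrix.one_apply]
  grind

theorem rel3 : T * J β = -(J β * T) := by
  simp only [J, T, mul_f4]
  apply ext4
  simp
  grind

theorem rel4 : Z β = -1 + T + J β + T * J β := by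
  simp only [Z, J, T, mul_f4]
  apply ext4
  simp [Matrix.one_apply]
  grind

theorem rel5 : Z β * Z β + (2 : F) • Z β + (4 : F) • 1 = 0 := by
  simp only [Z, mul_f4]
  apply ext4
  simp [Matrix.one_apply]
  grind

theorem rel : Y β * T * Y β * Y β * T * Y β * T * Y β * Y β = J β ∧ J β * J β = -1 ∧ T * J β = -(J β * T) ∧
    Z β = -1 + T + J β + T * J β ∧ Z β * Z β + (2 : F) • Z β + (4 : F) • 1 = 0 ∧ (Z β).det = 16 :=
  ⟨rel1 h, rel2 h, rel3 h, rel4 h, rel5 h, by rw [Z, det_f4]; grind⟩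

theorem actT (i : Fin 7) : Tᵀ * B β i * T = B β (![3, 1, 2, 0, 5, 4, 6] i) := by
  fin_cases i <;>
    simp only [B, Fin.zero_eta, Fin.mk_one, Fin.reduceFinMk, Matrix.cons_val, sk_act] <;>
    congr 1 <;> simp only [mn, T, Matrix.of_apply, Matrix.cons_val] <;> ring

theorem actY (i : Fin 7) : (Y β)ᵀ * B β i * Y β = B β (![4, 2, 3, 1, 6, 5, 0] i) := by
  fin_cases i <;>
    simp only [B, Fin.zero_eta, Fin.mk_one, Fin.reduceFinMk, Matrix.cons_val, sk_act] <;>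
    congr 1 <;> simp only [mn, Y, Matrix.of_apply, Matrix.cons_val] <;> grind

theorem actZ (i : Fin 7) : (Z β)ᵀ * B β i * Z β = (4 : F) • B β (![3, 1, 2, 5, 4, 0, 6] i) := by
  fin_cases i <;>
    simp only [B, Fin.zero_eta, Fin.mk_one, Fin.reduceFinMk, Matrix.cons_val, sk_act, sk_smul] <;>
    congr 1 <;> simp only [mn, Z, Matrix.of_apply, Matrix.cons_val] <;> grind

theorem act (i : Fin 7) : Tᵀ * B β i * T = B β (![3, 1, 2, 0, 5, 4, 6] i) ∧
    (Y β)ᵀ * B β i * Y β = B β (![4, 2, 3, 1, 6, 5, 0] i) ∧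
    (Z β)ᵀ * B β i * Z β = (4 : F) • B β (![3, 1, 2, 5, 4, 0, 6] i) :=
  ⟨actT h i, actY h i, actZ h i⟩

theorem span (a b c d e f : F) : (14 : F) • sk a b c d e f =
    ((-4 - β) * a + (4 + β) * c + (-2 + 3 * β) * e + (-2 - 4 * β) * f) • B β 0 +
    ((-2 - 4 * β) * a + (4 + β) * b + (4 + β) * c + (4 + β) * d + (-4 - β) * e + (-2 - 4 * β) * f) • B β 1 +
    ((-4 - β) * a + (4 + β) * b + (-4 - β) * e + (2 - 3 * β) * f) • B β 2 +
    ((-4 - β) * a + (2 - 3 * β) * b + (4 + β) * d + (-2 - 4 * β) * f) • B β 3 +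
    ((2 + 4 * β) * c + (4 + β) * d + (-4 - β) * e + (2 - 3 * β) * f) • B β 4 +
    ((4 + β) * b + (4 + β) * c + (2 + 4 * β) * d + (2 - 3 * β) * f) • B β 5 := by
  simp only [B, Matrix.cons_val, sk_smul, sk_add]
  congr 1 <;> grind

/-- The `B i` span the skew matrices, so the `2 × 2` minors of `g` are those of `1`. -/
theorem sq_eq_one (h14 : (14 : F) ≠ 0) {g : GL (Fin 4) F} (hg : ∀ i, g.1ᵀ * B β i * g.1 = B β i) : g ^ 2 = 1 := by
  have key : ∀ a b c d e f : F, g.1ᵀ * sk a b c d e f * g.1 = sk a b c d e f := fun a b c d e f => by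
    refine smul_right_injective _ h14 ?_
    simp only
    rw [← Matrix.smul_mul, ← Matrix.mul_smul, span h]
    simp only [Matrix.mul_add, Matrix.add_mul, Matrix.mul_smul, Matrix.smul_mul, hg]
  have H : ∀ k l i j, g.1 k i * g.1 l j - g.1 l i * g.1 k j =
      (if k = i ∧ l = j then 1 else 0) - if l = i ∧ k = j then 1 else 0 := fun k l i j => by
    let E : Matrix (Fin 4) (Fin 4) F := Matrix.single k l 1 - Matrix.single l k 1
    have hE : E = sk (E 0 1) (E 0 2) (E 0 3) (E 1 2) (E 1 3) (E 2 3) := by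
      apply ext4
      simp [E, sk, Matrix.single_apply, and_comm]
    have := key (E 0 1) (E 0 2) (E 0 3) (E 1 2) (E 1 3) (E 2 3)
    rw [← hE] at this
    have := congrFun (congrFun this i) j
    simpa [E, Matrix.mul_sub, Matrix.sub_mul, Matrix.single_apply, Matrix.mul_apply, ite_and, sub_mul] using this
  have off : ∀ k i, k ≠ i → g.1 k i = 0 := fun k i e => by
    obtain ⟨l, h1, h2⟩ : ∃ l, l ≠ i ∧ l ≠ k := by revert k i; decide
    have e1 := H k l k l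
    have e2 := H k l i l
    have e3 := H k l i k
    simp [e, h1, h2, h2.symm] at e1 e2 e3
    linear_combination g.1 k k * e2 - g.1 k l * e3 - g.1 k i * e1
  have dia : ∀ k l, k ≠ l → g.1 k k * g.1 l l = 1 := fun k l e => by
    simpa [e, e.symm, off _ _ e] using H k l k l
  refine Units.ext (Matrix.ext fun i j => ?_)
  rw [sq, Units.val_mul, Matrix.mul_apply, Finset.sum_eq_single i (fun k _ e => by rw [off _ _ e.symm, zero_mul]) (by simp)]
  by_cases e : i = j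
  · subst e
    obtain ⟨k, l, h1, h2, h3⟩ : ∃ k l, i ≠ k ∧ i ≠ l ∧ k ≠ l := by revert i; decide
    rw [Units.val_one, Matrix.one_apply_eq]
    linear_combination (g.1 i i * g.1 l l) * dia _ _ h1 + dia _ _ h2 - g.1 i i ^ 2 * dia _ _ h3
  · rw [off _ _ e, mul_zero, Units.val_one, Matrix.one_apply_ne e]

end S7

/-- A group acting on at most fourteen points with a kernel of exponent two has order not divisible by `p⁶`. -/
theorem not_pow_six {Ω α : Type*} [Group Ω] [Finite Ω] [Fintype α] (φ : Ω →* Perm α) (hα : Fintype.card α ≤ 14)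
    (hk : ∀ g, φ g = 1 → g ^ 2 = 1) {p : ℕ} (hp : p.Prime) (h2 : p ≠ 2) : ¬ p ^ 6 ∣ Nat.card Ω := by
  classical
  intro h6
  haveI := Fact.mk hp
  have h1 : ¬ p ∣ Nat.card φ.ker := fun e => by
    obtain ⟨g, hg⟩ := exists_prime_orderOf_dvd_card' p e
    have : orderOf g ∣ 2 := orderOf_dvd_of_pow_eq_one (Subtype.ext (hk g.1 g.2))
    exact h2 ((Nat.prime_dvd_prime_iff_eq hp Nat.prime_two).1 (hg ▸ this))
  rw [← φ.ker.card_mul_index, Subgroup.index_ker] at h6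
  have h3 := (((hp.coprime_iff_not_dvd.2 h1).pow_left 6).dvd_of_dvd_mul_left h6).trans
    (Subgroup.card_subgroup_dvd_card φ.range)
  rw [Nat.card_perm, Nat.card_eq_fintype_card] at h3
  have h4 := h3.trans (Nat.factorial_dvd_factorial hα)
  have h5 := hp.dvd_factorial.1 ((dvd_pow_self p (by norm_num)).trans h4)
  have := hp.two_le
  interval_cases p <;> first | exact absurd h4 (by decide) | exact absurd rfl h2 | exact absurd hp (by decide)

/-- a non-zero intertwiner into an irreducible module is invertible -/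
theorem isUnit_of_intertwine {a b : GL (Fin 4) F} (h : Asch.Irr (Subgroup.closure {a, b}))
    {B M N : Matrix (Fin 4) (Fin 4) F} (h0 : B ≠ 0) (ha : a.1 * B = B * M) (hb : b.1 * B = B * N) : IsUnit B := by
  have key : ∀ (g : GL (Fin 4) F) (M), g.1 * B = B * M → g ∈ subspaceStabilizer (LinearMap.range B.toLin') :=
    fun g M e => Linear.mem_subspaceStabilizer_of_le (by
      rintro _ ⟨v, rfl⟩
      exact ⟨M *ᵥ v, by simp only [Matrix.toLin'_apply, Matrix.mulVec_mulVec, e]⟩)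
  rcases h _ (Asch.inv_of_le_subspaceStabilizer ((Subgroup.closure_le _).2 (by
    rintro _ (rfl | rfl); exacts [key _ _ ha, key _ _ hb]))) with e | e
  · exact absurd (Matrix.toLin'.map_eq_zero_iff.1 (LinearMap.range_eq_bot.1 e)) h0
  · exact Matrix.mulVec_surjective_iff_isUnit.1 (LinearMap.range_eq_top.1 e)

theorem mul_cols4 {A M : Matrix (Fin 4) (Fin 4) F} {c : Fin 4 → Fin 4 → F}
    (h : ∀ j, A *ᵥ c j = M 0 j • c 0 + M 1 j • c 1 + M 2 j • c 2 + M 3 j • c 3) :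
    A * (Matrix.of c)ᵀ = (Matrix.of c)ᵀ * M := by
  ext i j
  have := congrFun (h j) i
  simp only [Matrix.mul_apply, Matrix.mulVec, dotProduct, Fin.sum_univ_four, Matrix.transpose_apply,
    Matrix.of_apply, Pi.add_apply, Pi.smul_apply, smul_eq_mul] at this ⊢
  linear_combination this

theorem int_mul {g h C M N : Matrix (Fin 4) (Fin 4) F} (e : g * C = C * M) (e' : h * C = C * N) :
    g * h * C = C * (M * N) := by
  rw [Matrix.mul_assoc, e', ← Matrix.mul_assoc, e, Matrix.mul_assoc]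

theorem int_eq {g M : Matrix (Fin 4) (Fin 4) F} {C : GL (Fin 4) F} (e : g * C.1 = C.1 * M) :
    g = C.1 * M * (C⁻¹).1 := by
  rw [← e, Matrix.mul_assoc, Units.mul_inv, Matrix.mul_one]

theorem int_tr {g M : Matrix (Fin 4) (Fin 4) F} {C : GL (Fin 4) F} (e : g * C.1 = C.1 * M) : g.trace = M.trace := by
  rw [int_eq e, Matrix.trace_mul_comm, ← Matrix.mul_assoc, Units.inv_mul, Matrix.one_mul]

theorem cols4_mulVec (c : Fin 4 → Fin 4 → F) (v : Fin 4 → F) :
    (Matrix.of c)ᵀ *ᵥ v = v 0 • c 0 + v 1 • c 1 + v 2 • c 2 + v 3 • c 3 := by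
  ext i
  simp [Matrix.mulVec, dotProduct, Fin.sum_univ_four, mul_comm]

/-- the cyclic basis for a pair `t, y` with `t²` scalar, `y³ = 1` and `t y` fixing a vector -/
theorem nf4 {t y : GL (Fin 4) F} (h : Asch.Irr (Subgroup.closure {t, y})) (dt : t.1.det = 1) (dy : y.1.det = 1)
    {ε : F} (h2 : t.1 * t.1 = ε • 1) (h3 : y ^ 3 = 1) {a : Fin 4 → F} (a0 : a ≠ 0) (ha : (t * y).1 *ᵥ a = a) :
    (2 : F) ≠ 0 ∧ ∃ (C : GL (Fin 4) F) (x z : F), t.1 * C.1 = C.1 * S7.T ∧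
      y.1 * C.1 = C.1 * !![0, 0, 1, x; 1, 0, 0, -x - z; 0, 1, 0, z; 0, 0, 0, 1] := by
  obtain ⟨b, hb⟩ : ∃ b, y.1 *ᵥ a = b := ⟨_, rfl⟩
  obtain ⟨c, hc⟩ : ∃ c, y.1 *ᵥ b = c := ⟨_, rfl⟩
  obtain ⟨d, hd⟩ : ∃ d, t.1 *ᵥ c = d := ⟨_, rfl⟩
  have y3 : y.1 * y.1 * y.1 = 1 := by rw [← Units.val_mul, ← Units.val_mul, ← pow_three', h3, Units.val_one]
  have tb : t.1 *ᵥ b = a := by rw [← hb, Matrix.mulVec_mulVec, ← Units.val_mul, ha]
  have ta : t.1 *ᵥ a = ε • b := by rw [← tb, Matrix.mulVec_mulVec, h2, Matrix.smul_mulVec, Matrix.one_mulVec]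
  have td : t.1 *ᵥ d = ε • c := by rw [← hd, Matrix.mulVec_mulVec, h2, Matrix.smul_mulVec, Matrix.one_mulVec]
  have yc : y.1 *ᵥ c = a := by rw [← hc, ← hb, Matrix.mulVec_mulVec, Matrix.mulVec_mulVec, y3, Matrix.one_mulVec]
  have i3 : ∀ x w z : F, d ≠ x • a + w • b + z • c := fun x w z e => by
    have := isUnit_of_intertwine h (B := (Matrix.of ![a, b, c, 0])ᵀ)
      (M := !![0, 1, x, 0; ε, 0, w, 0; 0, 0, z, 0; 0, 0, 0, 0]) (N := !![0, 0, 1, 0; 1, 0, 0, 0; 0, 1, 0, 0; 0, 0, 0, 0])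
      (fun e => a0 (funext fun i => congrFun (congrFun e i) 0)) (mul_cols4 fun j => ?_) (mul_cols4 fun j => ?_)
    · have k := Matrix.mulVec_injective_iff_isUnit.2 this (a₁ := ![0, 0, 0, 1]) (a₂ := 0) (by simp [cols4_mulVec])
      simpa using congrFun k 3
    · fin_cases j <;> simp [ta, tb, hd, e]
    · fin_cases j <;> simp [hb, hc, yc]
  have i2 : ∀ x w : F, c ≠ x • a + w • b := fun x w e => i3 w (x * ε) 0 (by
    rw [← hd, e, Matrix.mulVec_add, Matrix.mulVec_smul, Matrix.mulVec_smul, ta, tb]; module)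
  have i1 : ∀ x : F, b ≠ x • a := fun x e => i2 0 x (by
    rw [← hc]; conv_lhs => rw [e]
    rw [Matrix.mulVec_smul, hb]; module)
  obtain ⟨C, hC⟩ : ∃ C : GL (Fin 4) F, C.1 = (Matrix.of ![a, b, c, d])ᵀ := by
    refine Matrix.mulVec_injective_iff_isUnit.1 (Matrix.mulVec_injective_iff.2 ?_)
    refine Fintype.linearIndependent_iff.2 fun v hv => ?_
    have hv : v 0 • a + v 1 • b + v 2 • c + v 3 • d = 0 := by
      rw [Fin.sum_univ_four] at hv; exact hv
    have v3 : v 3 = 0 := by_contra fun e => i3 (-v 0 / v 3) (-v 1 / v 3) (-v 2 / v 3) (by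
      linear_combination (norm := match_scalars <;> field_simp <;> ring) (v 3)⁻¹ • hv)
    have v2 : v 2 = 0 := by_contra fun e => i2 (-v 0 / v 2) (-v 1 / v 2) (by
      rw [v3] at hv
      linear_combination (norm := match_scalars <;> field_simp <;> ring) (v 2)⁻¹ • hv)
    have v1 : v 1 = 0 := by_contra fun e => i1 (-v 0 / v 1) (by
      rw [v3, v2] at hv
      linear_combination (norm := match_scalars <;> field_simp <;> ring) (v 1)⁻¹ • hv)
    have v0 : v 0 = 0 := by simpa [v1, v2, v3, a0] using hv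
    intro i; fin_cases i <;> assumption
  obtain ⟨v, hv⟩ := Matrix.mulVec_surjective_iff_isUnit.2 C.isUnit (y.1 *ᵥ d)
  rw [hC, cols4_mulVec] at hv
  have eT : t.1 * C.1 = C.1 * !![0, 1, 0, 0; ε, 0, 0, 0; 0, 0, 0, ε; 0, 0, 1, 0] := by
    rw [hC]; refine mul_cols4 fun j => ?_
    fin_cases j <;> simp [ta, tb, hd, td]
  have eY : y.1 * C.1 = C.1 * !![0, 0, 1, v 0; 1, 0, 0, v 1; 0, 1, 0, v 2; 0, 0, 0, v 3] := by
    rw [hC]; refine mul_cols4 fun j => ?_
    fin_cases j <;> simp [hb, hc, yc, ← hv]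
  have e2 : ε ^ 2 = 1 := by
    have := congrArg Matrix.det eT
    rw [Matrix.det_mul, Matrix.det_mul, dt, S7.det_f4] at this
    exact mul_left_cancel₀ C.det_ne_zero (by linear_combination -this)
  have v3 : v 3 = 1 := by
    have := congrArg Matrix.det eY
    rw [Matrix.det_mul, Matrix.det_mul, dy, S7.det_f4] at this
    exact mul_left_cancel₀ C.det_ne_zero (by linear_combination -this)
  have v1 : v 1 = -v 0 - v 2 := by
    have := int_mul (int_mul eY eY) eY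
    rw [y3, Matrix.one_mul, ← Matrix.mul_one C.1, Matrix.mul_assoc, Matrix.one_mul, Units.mul_right_inj, v3,
      S7.mul_f4, S7.mul_f4] at this
    have := congrFun (congrFun this 0) 3
    simp at this
    linear_combination -this
  rw [v3, v1] at eY
  have e1 : ε ≠ 1 := by
    rintro rfl
    have := isUnit_of_intertwine h (B := C.1 * !![1, 0, 0, 0; -1, 1, 0, 0; 0, -1, 1, 0; 0, 0, -1, 0])
      (M := !![-1, 1, 0, 0; 0, 1, 0, 0; 0, 1, -1, 0; 0, 0, 0, 0])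
      (N := !![0, -1, 1 - v 0, 0; 1, -1, 1 + v 2, 0; 0, 0, 1, 0; 0, 0, 0, 0]) (fun e => ?_) ?_ ?_
    · rw [Matrix.isUnit_iff_isUnit_det, Matrix.det_mul, S7.det_f4] at this
      simp at this
    · rw [Units.mul_right_eq_zero] at e
      simpa using congrFun (congrFun e 0) 0
    · rw [← Matrix.mul_assoc, eT, Matrix.mul_assoc, Matrix.mul_assoc, S7.mul_f4, S7.mul_f4]; simp
    · rw [← Matrix.mul_assoc, eY, Matrix.mul_assoc, Matrix.mul_assoc, S7.mul_f4, S7.mul_f4]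
      congr 1; apply S7.ext4; simp; grind
  obtain rfl : ε = -1 := (sq_eq_one_iff.1 e2).resolve_left e1
  exact ⟨fun e => e1 (by linear_combination -e), C, v 0, v 2, eT, eY⟩

/-- the action on bilinear forms -/
def cgF : GL (Fin 4) F →* Perm (Matrix (Fin 4) (Fin 4) F) := MonoidHom.toHomPerm
  { toFun g := fun E => (g⁻¹).1ᵀ * E * (g⁻¹).1
    map_one' := funext fun E => by simp [Function.End.one_def]
    map_mul' g h := funext fun E => by
      change _ = (g⁻¹).1ᵀ * ((h⁻¹).1ᵀ * E * (h⁻¹).1) * (g⁻¹).1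
      simp [mul_assoc] }

theorem cgF_apply (g : GL (Fin 4) F) (E : Matrix (Fin 4) (Fin 4) F) : cgF g E = (g⁻¹).1ᵀ * E * (g⁻¹).1 := rfl

/-- the fourteen forms `± B i` -/
def S7.S (β : F) : Set (Matrix (Fin 4) (Fin 4) F) := Set.range fun x : Fin 7 × ℤˣ => x.2 • S7.B β x.1

/-- the stabiliser of the fourteen forms, in the basis `C` -/
def S7.M (β : F) (C : GL (Fin 4) F) : Subgroup (GL (Fin 4) F) :=
  (MulAction.stabilizer (Perm _) (S7.S β)).comap (cgF.comp (MulAut.conj C⁻¹).toMonoidHom)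

theorem S7.mem_M {β : F} {C g : GL (Fin 4) F} {N : Matrix (Fin 4) (Fin 4) F} (e : g.1 * C.1 = C.1 * N)
    (h : ∀ i, ∃ (j : Fin 7) (ε : ℤˣ), Nᵀ * S7.B β i * N = ε • S7.B β j) : g ∈ S7.M β C := by
  rw [← inv_mem_iff, S7.M, Subgroup.mem_comap, S7.S, MulAction.mem_stabilizer_set' (Set.finite_range _)]
  rintro _ ⟨⟨i, δ⟩, rfl⟩
  obtain ⟨j, ε, k⟩ := h i
  have : (C⁻¹ * g⁻¹ * C⁻¹⁻¹)⁻¹.1 = N := by
    rw [show (C⁻¹ * g⁻¹ * C⁻¹⁻¹)⁻¹ = C⁻¹ * (g * C) by group, Units.val_mul, Units.val_mul, e, Units.inv_mul_cancel_left]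
  refine ⟨(j, δ * ε), ?_⟩
  change _ = cgF (C⁻¹ * g⁻¹ * C⁻¹⁻¹) _
  rw [cgF_apply, this, Matrix.mul_smul, Matrix.smul_mul, k, ← mul_smul]

theorem S7.not_le_M {β : F} (h : β ^ 2 + β + 2 = 0) (h14 : (14 : F) ≠ 0) (C : GL (Fin 4) F)
    {Ω : Subgroup (GL (Fin 4) F)} [Finite Ω] {p : ℕ} (hp : p.Prime) (h2 : p ≠ 2) (h6 : p ^ 6 ∣ Nat.card Ω) :
    ¬ Ω ≤ S7.M β C := fun hle => by
  classical
  let ψ : Ω →* MulAction.stabilizer (Perm _) (S7.S β) :=
    ((cgF.comp (MulAut.conj C⁻¹).toMonoidHom).comp Ω.subtype).codRestrict _ fun g => hle g.2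
  letI : Fintype (S7.S β) := Set.fintypeRange _
  refine not_pow_six ((MulAction.toPermHom _ (S7.S β)).comp ψ) ((Fintype.card_range_le _).trans (by simp))
    (fun g hg => ?_) hp h2 h6
  have := S7.sq_eq_one h h14 (g := (C⁻¹ * g.1 * C⁻¹⁻¹)⁻¹) fun i => by
    have := congrArg (fun s : Perm (S7.S β) => (s ⟨_, (i, 1), rfl⟩).1) hg
    simp only [one_smul] at this
    exact this
  rw [inv_pow, inv_eq_one, conj_pow, conj_eq_one_iff] at this
  exact Subtype.ext this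

/-- elements of order three in `L₂(7)` -/
theorem conj_three {x y : D3.L27} (hx : x ^ 3 = 1) (x1 : x ≠ 1) (hy : y ^ 3 = 1) (y1 : y ≠ 1) :
    IsConj x y ∨ IsConj x y⁻¹ := by
  haveI : Fact (Nat.Prime 3) := ⟨by norm_num⟩
  have hc : ∀ z : D3.L27, z ^ 3 = 1 → z ≠ 1 →
      Nat.card (Subgroup.zpowers z) = 3 ^ (Nat.card D3.L27).factorization 3 := fun z h3 h1 => by
    rw [Nat.card_zpowers, orderOf_eq_prime h3 h1, D3.card_L27]
    decide +kernel
  obtain ⟨s, hs⟩ := MulAction.exists_smul_eq D3.L27 (Sylow.ofCard _ (hc x hx x1)) (Sylow.ofCard _ (hc y hy y1))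
  have h1 : s * x * s⁻¹ ∈ Subgroup.zpowers y := by
    have : s * x * s⁻¹ ∈ s • Sylow.ofCard _ (hc x hx x1) := Subgroup.smul_mem_pointwise_smul _ _ _ (Subgroup.mem_zpowers x)
    rwa [hs] at this
  rw [mem_zpowers_iff_mem_range_orderOf, orderOf_eq_prime hy y1, Finset.mem_image] at h1
  obtain ⟨k, hk, e⟩ := h1
  rw [Finset.mem_range] at hk
  interval_cases k
  · exact absurd (by simpa using e.symm) x1
  · exact .inl (isConj_iff.2 ⟨s, by simpa using e.symm⟩)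
  · exact .inr (isConj_iff.2 ⟨s, e.symm.trans (eq_inv_of_mul_eq_one_left (by rw [← pow_succ, hy]))⟩)

variable {P : Subgroup (GL (Fin 4) F)} {π : P →* D3.L27}

namespace Cov

variable (h : Cov P π)
include h

theorem l27_u : ∃ u : P, π u = PSL2.toL (D3.m7 0 (-1) 1 0) * PSL2.toL (D3.m7 0 1 (-1) (-1)) ∧ u ^ 7 = 1 ∧
    u.1 ≠ 1 ∧ IsConj u.1 (u.1 ^ 2) := by
  obtain ⟨u, hu, u7⟩ := h.pr.exists_lift D3.g168.u7 (by simp; norm_num)
  refine ⟨u, hu, u7, fun e => D3.g168.u1 (by rw [← hu, show u = 1 from Subtype.ext e, map_one]), ?_⟩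
  exact P.subtype.map_isConj (h.pr.isConj (g' := u ^ 2) u7 (by rw [← pow_mul, mul_comm, pow_mul, u7, one_pow])
    (by simp; norm_num) (by rw [map_pow, hu]; exact D3.g168.ur))

/-- **Normal form.** -/
theorem l27_nf : (2 : F) ≠ 0 ∧ ∃ (β : F) (C : GL (Fin 4) F) (t y : P), β ^ 2 + β + 2 = 0 ∧ y ^ 3 = 1 ∧ π y ≠ 1 ∧
    Subgroup.closure {t.1, y.1} = P ∧ t.1.1 * C.1 = C.1 * S7.T ∧ y.1.1 * C.1 = C.1 * S7.Y β := by
  obtain ⟨u, hu, u7, u1, uc⟩ := h.l27_u
  obtain ⟨y, hy, y3⟩ := h.pr.exists_lift D3.g168.b3 (by simp; norm_num)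
  obtain ⟨t, rfl⟩ : ∃ t, u = t * y := ⟨u * y⁻¹, by simp⟩
  rw [map_mul, hy, mul_left_inj] at hu
  have hP : Subgroup.closure {t.1, y.1} = P := by
    simpa [Set.image_pair] using h.closure_eq (s := {t, y}) (by rw [Set.image_pair, hu, hy, D3.g168.gen])
  obtain ⟨ε, hε⟩ := mem_scalars_iff'.1 ((h.ker (t * t)).1 (by rw [map_mul, hu, ← sq, D3.g168.a2]))
  have u7' : (t * y).1 ^ 7 = 1 := congrArg Subtype.val u7
  have y3' : y.1 ^ 3 = 1 := congrArg Subtype.val y3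
  obtain ⟨a, a0, ha⟩ := fix7 u7' uc
  obtain ⟨h2, C, x, z, eT, eY⟩ := nf4 (hP.symm ▸ h.qs.irr) (h.det t) (h.det y) hε y3' a0 ha
  obtain ⟨e1, e2⟩ := tr7 u7' u1 uc
  have t1 : tr (t * y).1 = 1 + z := by
    refine (int_tr (int_mul eT eY)).trans ?_
    simp [S7.T, Matrix.trace, Fin.sum_univ_four]
  have t2 : tr (t * y).1⁻¹ = 1 + x := by
    have k : t.1.1 * t.1.1 * t.1.1 * t.1.1 = 1 := by
      rw [int_eq (int_mul (int_mul (int_mul eT eT) eT) eT), show (S7.T * S7.T * S7.T * S7.T : Matrix _ _ F) = 1 by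
        simp only [S7.T, S7.mul_f4]; apply S7.ext4; simp]
      simp
    have : (t * y).1⁻¹ = y.1 * y.1 * (t.1 * t.1 * t.1) := by
      refine inv_eq_of_mul_eq_one_left ?_
      rw [Subgroup.coe_mul, mul_assoc, ← mul_assoc _ t.1, show t.1 * t.1 * t.1 * t.1 = 1 from Units.ext k, one_mul,
        ← pow_three', y3']
    rw [this]
    refine (int_tr (int_mul (int_mul eY eY) (int_mul (int_mul eT eT) eT))).trans ?_
    simp only [S7.T, S7.mul_f4]
    simp [Matrix.trace, Fin.sum_univ_four]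
  rw [t1] at e1 e2
  refine ⟨h2, z, C, t, y, by linear_combination e1, y3, hy ▸ D3.g168.b1, hP, eT, ?_⟩
  rw [eY, show x = -1 - z by linear_combination e2 - t2, S7.Y]
  congr 1; apply S7.ext4; simp

theorem l27_norm (h7 : (7 : F) ≠ 0) : Subgroup.normalizer (P : Set (GL (Fin 4) F)) ≤ P ⊔ scalars (Fin 4) F := by
  intro x hx
  obtain ⟨u, hu, u7, u1, uc⟩ := h.l27_u
  obtain ⟨e1, e2⟩ := tr7 (congrArg Subtype.val u7) u1 uc
  obtain ⟨ψ, φ, h1, h2⟩ := h.exists_aut hx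
  refine h.mem_sup h1 h2 ((D3.g168.aut φ).resolve_right fun e => h7 ?_)
  have : tr (ψ u).1 = tr u.1⁻¹ := h.pr.tr_eq (g' := u⁻¹) (by rw [← map_pow, u7, map_one])
    (by rw [inv_pow, u7, inv_one]) (by simp; norm_num) (by rwa [← h2, map_inv, hu])
  rw [h1, tr_conj, e2] at this
  linear_combination 4 * e1 - (2 * tr u.1 - 1) * this

theorem l27_three {g : GL (Fin 4) F} (hg : g ∈ P) (h3 : g ^ 3 = 1) (h1 : g ≠ 1) : g.1 * g.1 + g.1 + 1 ≠ 0 := by
  obtain ⟨-, β, C, t, y, -, y3, y1, -, -, eY⟩ := h.l27_nf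
  have g3 : (⟨g, hg⟩ : P) ^ 3 = 1 := Subtype.ext h3
  have cop : Nat.Coprime 3 (Fintype.card (Fin 4)) := by simp; norm_num
  have g1 : π ⟨g, hg⟩ ≠ 1 := fun e =>
    h1 (congrArg Subtype.val (h.pr.lift_unique (g' := 1) (e.trans (map_one π).symm) g3 (one_pow _) cop))
  have key : ∀ {a b : GL (Fin 4) F}, IsConj a b → a.1 * a.1 + a.1 + 1 = 0 → b.1 * b.1 + b.1 + 1 = 0 := fun {a b} e k => by
    obtain ⟨s, rfl⟩ := isConj_iff.1 e
    have := congrArg (fun X => s.1 * X * (s⁻¹).1) k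
    simpa [mul_add, add_mul, mul_assoc] using this
  intro k
  have ky : y.1.1 * y.1.1 + y.1.1 + 1 = 0 := by
    rcases conj_three (by rw [← map_pow, g3, map_one]) g1 (by rw [← map_pow, y3, map_one]) y1 with e | e
    · exact key (P.subtype.map_isConj (h.pr.isConj g3 y3 cop e)) k
    · have := key (P.subtype.map_isConj (h.pr.isConj (g' := y⁻¹) g3 (by rw [inv_pow, y3, inv_one]) cop
        (by rwa [map_inv]))) k
      have := congrArg (fun X => y.1.1 * (y.1.1 * X)) this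
      simp only [Subgroup.subtype_apply, Subgroup.coe_inv, mul_add, ← mul_assoc, Units.mul_inv, mul_one, mul_zero,
        Units.mul_inv_cancel_right] at this
      rw [← this]; abel
  have := congrArg (· * C.1) ky
  simp only [add_mul, int_mul eY eY, eY, one_mul, zero_mul] at this
  have k2 : C.1 * (S7.Y β * S7.Y β + S7.Y β + 1) = 0 := by rw [mul_add, mul_add, mul_one, this]
  rw [Units.mul_right_eq_zero] at k2
  simpa [S7.Y] using congrFun (congrFun k2 0) 0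

/-- The stabiliser of the fourteen forms contains `H` and an element of order three of `Ω` outside `H`. -/
theorem l27_not_max [Finite F] (p : ℕ) [Fact p.Prime] [CharP F p] (h7 : p ≠ 7) {H Ω : Subgroup (GL (Fin 4) F)}
    (hP : P ≤ H) (hN : H ≤ Subgroup.normalizer (P : Set (GL (Fin 4) F))) (hM : IsMaximalIn Ω H)
    (hΩ : Ω ≤ specialLinear (Fin 4) F) (h6 : p ^ 6 ∣ Nat.card Ω)
    (hy : ∀ i ∈ P, ∀ j ∈ P, ∀ y : GL (Fin 4) F, i ^ 2 = -1 → j ^ 2 = -1 → i * j = -(j * i) →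
      (2 : F) • y.1 = -1 + i.1 + j.1 + i.1 * j.1 → y.1.det = 1 → y ∈ Ω) : False := by
  obtain ⟨h2, β, C, t, y, hβ, -, -, hg, eT, eY⟩ := h.l27_nf
  have h7' : (7 : F) ≠ 0 := fun e => h7 ((Nat.prime_dvd_prime_iff_eq Fact.out (by norm_num)).1
    ((CharP.cast_eq_zero_iff F p 7).1 (by simpa using e)))
  have p2 : p ≠ 2 := by rintro rfl; exact h2 (CharP.cast_eq_zero F 2)
  obtain ⟨r1, r2, r3, r4, r5, r6⟩ := S7.rel hβ
  -- the decomposition of the elements of `H`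
  have dec : ∀ x ∈ H, ∃ g ∈ P, ∃ s : GL (Fin 4) F, ∃ c : F, s.1 = c • 1 ∧ c ^ 4 = 1 ∧ x = g * s := fun x hx => by
    haveI := scalars_normal (ι := Fin 4) (F := F)
    obtain ⟨g, hg, s, hs, rfl⟩ := Subgroup.mem_sup_of_normal_right.1 (h.l27_norm h7' (hN hx))
    obtain ⟨c, hc⟩ := mem_scalars_iff'.1 hs
    have d := Linear.mem_specialLinear.1 (hΩ (hM.1.le hx))
    rw [Units.val_mul, Matrix.det_mul, h.qs.det hg, one_mul] at d
    exact ⟨g, hg, s, c, hc, by simpa using pow_card_of_det d hc, rfl⟩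
  have hPM : P ≤ S7.M β C := hg ▸ (Subgroup.closure_le _).2 (by
    rintro _ (rfl | rfl)
    · exact S7.mem_M eT fun i => ⟨_, 1, by rw [(S7.act hβ i).1, one_smul]⟩
    · exact S7.mem_M eY fun i => ⟨_, 1, by rw [(S7.act hβ i).2.1, one_smul]⟩)
  have hHM : H ≤ S7.M β C := fun x hx => by
    obtain ⟨g, hg, s, c, hc, c4, rfl⟩ := dec x hx
    refine mul_mem (hPM hg) (S7.mem_M (N := c • 1) (by simp [hc]) fun i => ?_)
    rcases sq_eq_one_iff.1 (show (c * c) ^ 2 = 1 by linear_combination c4) with e | e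
    · exact ⟨i, 1, by simp [smul_smul, e]⟩
    · exact ⟨i, -1, by simp [smul_smul, e]⟩
  have hH := Asch.eq_inf_of_max hM hHM (S7.not_le_M hβ (by
    rw [show (14 : F) = 2 * 7 by norm_num]; exact mul_ne_zero h2 h7') C Fact.out p2 h6)
  -- the element `y₀`
  have dZ : ((2 : F)⁻¹ • S7.Z β).det = 1 := by
    rw [Matrix.det_smul, r6, Fintype.card_fin]; field_simp; norm_num
  obtain ⟨z, hz⟩ : IsUnit ((2 : F)⁻¹ • S7.Z β) := by rw [Matrix.isUnit_iff_isUnit_det, dZ]; exact isUnit_one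
  have eZ : (C * z * C⁻¹).1 * C.1 = C.1 * ((2 : F)⁻¹ • S7.Z β) := by rw [← hz]; simp
  have eJ : (y * t * y * y * t * y * t * y * y).1.1 * C.1 = C.1 * S7.J β := r1 ▸
    int_mul (int_mul (int_mul (int_mul (int_mul (int_mul (int_mul (int_mul eY eT) eY) eY) eT) eY) eT) eY) eY
  generalize y * t * y * y * t * y * t * y * y = j at eJ
  have T2 : (S7.T * S7.T : Matrix (Fin 4) (Fin 4) F) = -1 := by
    simp only [S7.T, S7.mul_f4]; apply S7.ext4; simp
  have z3 : z.1 * z.1 + z.1 + 1 = 0 := by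
    rw [hz, Matrix.smul_mul, Matrix.mul_smul]
    linear_combination (norm := match_scalars <;> field_simp <;> norm_num) ((2 : F)⁻¹ * (2 : F)⁻¹) • r5
  have hz0 : C * z * C⁻¹ ∈ H := by
    rw [hH]
    refine ⟨S7.mem_M eZ fun i => ⟨![3, 1, 2, 5, 4, 0, 6] i, 1, ?_⟩, hy _ t.2 _ j.2 _ (Units.ext ?_) (Units.ext ?_) (Units.ext ?_) ?_ ?_⟩
    · rw [Matrix.transpose_smul, Matrix.smul_mul, Matrix.smul_mul, Matrix.mul_smul, (S7.act hβ i).2.2, one_smul]
      match_scalars; field_simp; norm_num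
    · rw [sq, Units.val_mul, int_eq (int_mul eT eT), T2]; simp
    · rw [sq, Units.val_mul, int_eq (int_mul eJ eJ), r2]; simp
    · rw [Units.val_neg, Units.val_mul, Units.val_mul, int_eq (int_mul eT eJ), int_eq (int_mul eJ eT), r3]; simp
    · rw [int_eq (int_mul eT eJ), int_eq eZ]
      conv_rhs => rw [int_eq eT, int_eq eJ]
      rw [r4]; simp [h2, mul_add, add_mul, smul_smul]
    · rw [int_eq eZ, Matrix.det_mul, Matrix.det_mul, dZ, mul_one, ← Matrix.det_mul]; simp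
  have w3 : (C * z * C⁻¹).1 * (C * z * C⁻¹).1 + (C * z * C⁻¹).1 + 1 = 0 := by
    simpa [mul_add, add_mul, mul_assoc] using congrArg (fun X => C.1 * X * (C⁻¹).1) z3
  have w1 : C * z * C⁻¹ ≠ 1 := fun e => by
    rw [conj_eq_one_iff] at e
    rw [e] at hz
    have e0 := congrFun (congrFun hz 0) 0
    have e1 := congrFun (congrFun hz 0) 1
    simp [S7.Z, h2] at e0 e1
    simp [e1] at e0
  generalize C * z * C⁻¹ = w at hz0 w3 w1
  have w33 : w ^ 3 = 1 := Units.ext (by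
    rw [Units.val_pow_eq_pow_val, Units.val_one]
    linear_combination (norm := noncomm_ring) (w.1 - 1) * w3)
  obtain ⟨g, hg, s, c, hc, c4, rfl⟩ := dec w hz0
  refine h.l27_three ?_ w33 w1 w3
  have cm : Commute g s := comm_of_scalar (mem_scalars_iff'.2 ⟨c, hc⟩) g
  have s4 : s ^ 4 = 1 := Units.ext (by rw [Units.val_pow_eq_pow_val, hc, smul_pow, c4]; simp)
  rw [show g * s = g ^ 4 by rw [← one_mul (g * s), ← w33, ← pow_succ, cm.mul_pow, s4, mul_one]]
  exact pow_mem hg 4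

end Cov

end Cfsg.Lib.Q4
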