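import Cfsg.Agent.Lib.Q4.Lin
import Cfsg.Agent.Lib.Mathieu.Classes
import Cfsg.Agent.Lib.Grp.Tst
import Cfsg.Agent.S0380

/-!
# `P / Z ≅ L₃(4)` in characteristic three: `tr g⁻¹ = (tr g)³`
-/

set_option autoImplicit false
set_option maxRecDepth 100000
set_option linter.unusedSectionVars false

namespace Cfsg.Lib.Q4

open scoped MatrixGroups Matrix commutatorElement
open Cfsg.Geo Equiv
open Cfsg.Lib.Q4R (dg sc)

/-- `E` is elementary abelian of order sixteen, `x` acts on it without fixed points, and its involutions are permuted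
transitively by the normaliser. -/
structure E16 {T : Type*} [Group T] (E : Subgroup T) (x : T) : Prop where
  card : Nat.card E = 16
  sq : ∀ e ∈ E, e ^ 2 = 1
  norm : ∀ e ∈ E, x * e * x⁻¹ ∈ E
  fpf : ∀ e ∈ E, Commute x e → e = 1
  conj : ∀ e ∈ E, ∀ e' ∈ E, e ≠ 1 → e' ≠ 1 → ∃ g, (∀ a ∈ E, g * a * g⁻¹ ∈ E) ∧ g * e * g⁻¹ = e'

namespace L34

open Cfsg.Lib.Calc Cfsg.Lib.Grp Cfsg.Lib.Mathieu
open Cfsg.Lib.Golay hiding allL allL_iff

/-- The four cases. -/
def Cl {T : Type*} [Group T] (x : T) : Prop := x ^ 3 = 1 ∨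
    (x ^ 4 = 1 ∧ ∃ y, Commute x (y * x * y⁻¹) ∧ x * (y * x * y⁻¹) * (y ^ 2 * x * (y ^ 2)⁻¹) = 1) ∨
    (x ^ 7 = 1 ∧ IsConj x (x ^ 2)) ∨ (x ^ 5 = 1 ∧ IsConj x x⁻¹ ∧ ∃ E, E16 E x)

theorem Cl.map {T T' : Type*} [Group T] [Group T'] (e : T ≃* T') {x : T} (h : Cl x) : Cl (e x) := by
  rcases h with h | ⟨h, y, a, b⟩ | ⟨h, a⟩ | ⟨h, a, E, b⟩
  · exact .inl (by rw [← map_pow, h, map_one])
  · exact .inr (.inl ⟨by rw [← map_pow, h, map_one], e y, by simpa using a.map e, by simpa using congrArg e b⟩)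
  · exact .inr (.inr (.inl ⟨by rw [← map_pow, h, map_one], by simpa using e.toMonoidHom.map_isConj a⟩))
  refine .inr (.inr (.inr ⟨by rw [← map_pow, h, map_one], by simpa using e.toMonoidHom.map_isConj a,
    E.map e.toMonoidHom, (Subgroup.card_map_of_injective e.injective).trans b.card, ?_, ?_, ?_, ?_⟩))
  · rintro _ ⟨t, ht, rfl⟩
    simpa using congrArg e (b.sq t ht)
  · rintro _ ⟨t, ht, rfl⟩
    exact ⟨_, b.norm t ht, by simp⟩
  · rintro _ ⟨t, ht, rfl⟩ c
    simpa using b.fpf t ht (e.injective (by simpa using c.eq))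
  · rintro _ ⟨t, ht, rfl⟩ _ ⟨t', ht', rfl⟩ n n'
    obtain ⟨g, c, d⟩ := b.conj t ht t' ht' (by simpa using n) (by simpa using n')
    refine ⟨e g, ?_, by simpa using congrArg e d⟩
    rintro _ ⟨a, ha, rfl⟩
    exact ⟨_, c a ha, by simp⟩

/-- The classes of `m21`. -/
def c21 : List (ℕ × ℕ) := [(984818244535754528103549039458486304, 20160),
  (976934804572108675034832543981668384, 64),
  (972771709591600271314490660250650656, 9),
  (984210704477124697957847928767954976, 16),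
  (967498995051906586324091537621865504, 16),
  (966312396597765287455830279577505824, 16),
  (971514216351522628586410195236111392, 5),
  (980662594830109734189369504976899104, 5),
  (980587600222038064482604180702801952, 7),
  (964718003796853945669404323878702112, 7)]
/-- Elements of order three. -/
def lY : List ℕ := [965225113279737155758354497310656544, 984559288045672395699075860841728032, 962048816021373442269272382190618656,
  963515095949177277443875056653535264]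
/-- The elements of `2⁴`. -/
def lE : List ℕ := [984818244535754528103549039458486304, 963721886883755259286232606933354528, 976448692869377735270425038196672544,
  971592882964418941354553515258775584, 966182099583441531322624363496310816, 980224387687010295957922729495201824,
  968708902336673183175954409307867168, 975346028712660580592452217730074656, 979121071158219704299181131031480352,
  970499966350631336865513127433832480, 972512676110088067912772961567868960, 981818691054096003685363657089320992,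
  967812279691448225500382947153381408, 983548720921252936276249910206105632, 961365507626256404119956257276790816,
  965128854020860192151391391390468128]
/-- Elements of the normaliser of `2⁴`. -/
def lG : List ℕ := [984818244535754528103549039458486304, 965223560137663349194592461648934944, 982210194077995055455057513613396000,
  970207962303803020723517763629516832, 963348160910017000073269771345889312, 980552157785649224654500934303516704,
  979620350940204452087432440781932576, 980432007022788775397046874473433120, 966320096358733541442380578386184224,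
  960846648121039428447104168786180128, 972880425904537242988189702047696928, 965225113279737155758354497310656544,
  984202951082164080105044112956360736, 972709491961276720470432662544365600, 981851628460820764576221274859571232]
/-- An involution of `2⁴`. -/
def e0 : ℕ := 963721886883755259286232606933354528

theorem fa : Faithful m21 24 G.pt := faithful_M24.subgroup _
theorem ch : Chn 24 5 G.pt L24.tail.tail.tail (⊤ : Subgroup m21) := ch21.chn.transfer fa (same_top _)
theorem inT {l : List ℕ} (h : allL l (tOK (tAnd (tAnd (tPt 23) (tPt 0)) (tPt 1))) = true) :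
    In 24 5 G.pt (⊤ : Subgroup m21) l := (same_top _).list (mem21.list h)
theorem cls : Classes 24 5 G.pt (⊤ : Subgroup m21) c21 := .of_clsOK inj_pt fa (by norm_num) (by norm_num) ch
  (inT (by decide +kernel)) (ks := [1, 2, 3]) (ks' := [1, 2, 3]) (by decide +kernel) (by decide +kernel)

/-- The group `2⁴`. -/
def E0 : Subgroup m21 := ⊤ ⊓ MulAction.stabilizer m21 (G.pt 2) ⊓ MulAction.stabilizer m21 (G.pt 3) ⊓
  MulAction.stabilizer m21 (G.pt 5)

theorem chE0 : Chn 24 5 G.pt [(4, lE)] E0 := ch.tail.tail.tail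

theorem exE {e : m21} (he : e ∈ E0) : ∃ c ∈ lE, Rep 24 5 G.pt e c := by
  obtain ⟨c, hc, h⟩ := chE0.st.1 e he
  obtain ⟨g, hg, r⟩ := chE0.wk.2.1 c hc
  have : g⁻¹ * e ∈ (⊥ : Subgroup m21) := (show _ = ⊥ from chE0.st.2) ▸
    Subgroup.mem_inf.2 ⟨E0.mul_mem (E0.inv_mem hg) he, by
      rw [MulAction.mem_stabilizer_iff, mul_smul, h, ← r.smul (by norm_num), inv_smul_smul]⟩
  exact ⟨c, hc, inv_mul_eq_one.1 this ▸ r⟩

/-- `d` normalises `2⁴`. -/
noncomputable def nrm (d : ℕ) : Bool := allL lE fun a => Grp.anyL lE fun b => trP 24 5 a b d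

theorem nrm_spec {g : m21} {d : ℕ} (r : Rep 24 5 G.pt g d) (h : nrm d = true) : ∀ a ∈ E0, g * a * g⁻¹ ∈ E0 :=
  fun a ha => by
  obtain ⟨c, hc, r1⟩ := exE ha
  obtain ⟨b, hb, e⟩ := Grp.anyL_iff.1 (allL_iff.1 h c hc)
  obtain ⟨k, hk, r2⟩ := chE0.wk.2.1 b hb
  rwa [(trP_iff inj_pt fa r1 r2 r).2 e, mul_inv_cancel_right]

theorem e16 {x : m21} {d : ℕ} (r : Rep 24 5 G.pt x d) (h : nrm d = true)
    (h' : allL lE (fun a => bor (Nat.beq a (idc 24 5)) (!trP 24 5 a a d)) = true) : E16 E0 x := by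
  refine ⟨by rw [chE0.card inj_pt]; rfl, fun e he => ?_, nrm_spec r h, fun e he c => ?_, fun e he e' he' n n' => ?_⟩
  · obtain ⟨c, hc, r1⟩ := exE he
    exact ((r1.powC (by norm_num) 2).eq_one_iff' inj_pt fa (by norm_num)).2
      ((by decide +kernel : ∀ c ∈ lE, powC 24 5 c 2 = idc 24 5) c hc)
  · obtain ⟨a, ha, r1⟩ := exE he
    have := allL_iff.1 h' a ha
    rw [(trP_iff inj_pt fa r1 r1 r).1 c.eq, bor_eq_true, beq_iff] at this
    exact (r1.eq_one_iff' inj_pt fa (by norm_num)).2 (by simpa using this)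
  obtain ⟨z, -, rz⟩ := inT (l := [e0]) (by decide +kernel) e0 (by simp)
  have k : ∀ e ∈ E0, e ≠ 1 → ∃ g, (∀ a ∈ E0, g * a * g⁻¹ ∈ E0) ∧ g * z * g⁻¹ = e := fun e he n => by
    obtain ⟨a, ha, r1⟩ := exE he
    have := allL_iff.1 (by decide +kernel : allL lE (fun a => bor (Nat.beq a (idc 24 5))
      (Grp.anyL lG fun d => trP 24 5 e0 a d)) = true) a ha
    rw [bor_eq_true, beq_iff, ← r1.eq_one_iff' inj_pt fa (by norm_num), Grp.anyL_iff] at this
    obtain ⟨d, hd, t⟩ := this.resolve_left n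
    obtain ⟨g, -, r2⟩ := inT (l := lG) (by decide +kernel) d hd
    exact ⟨g, nrm_spec r2 (allL_iff.1 (by decide +kernel : allL lG nrm = true) d hd),
      by rw [(trP_iff inj_pt fa rz r1 r2).2 t, mul_inv_cancel_right]⟩
  obtain ⟨g, a, rfl⟩ := k e he n
  obtain ⟨g', a', rfl⟩ := k e' he' n'
  refine ⟨g' * g⁻¹, fun b hb => ?_, by group⟩
  have := a' _ ((Subgroup.mem_normalizer_iff''.1 (Subgroup.mem_normalizer_fintype a) b).1 hb)
  simpa [mul_assoc] using this

/-- The test for `Cl`. -/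
noncomputable def tst (c : ℕ) : Bool := bor (Nat.beq (powC 24 5 c 3) (idc 24 5))
  (bor (band (Nat.beq (powC 24 5 c 4) (idc 24 5)) (Grp.anyL lY fun y => band (invB 24 5 y)
      (force (cjC 24 5 y c) fun a => band (trP 24 5 a a c) (Nat.beq (mul 24 5 (mul 24 5 c a) (cjC 24 5 y a)) (idc 24 5)))))
    (bor (band (Nat.beq (powC 24 5 c 7) (idc 24 5)) (trAny 24 5 L24.tail.tail.tail [1, 2, 3] c (powC 24 5 c 2)))
      (band (band (Nat.beq (powC 24 5 c 5) (idc 24 5)) (trAny 24 5 L24.tail.tail.tail [1, 2, 3] c (powC 24 5 c 4)))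
        (band (nrm c) (allL lE fun a => bor (Nat.beq a (idc 24 5)) (!trP 24 5 a a c))))))

theorem cl_m21 (x : m21) : Cl x := by
  refine cls.forall_of (P := Cl) (t := fun p => tst p.1) (fun x _ k _ h => h.map (MulAut.conj k))
    (fun x _ p r _ t => ?_) (by decide +kernel) x trivial
  have o : ∀ {k}, Nat.beq (powC 24 5 p.1 k) (idc 24 5) = true → x ^ k = 1 := fun h =>
    ((r.powC (by norm_num) _).eq_one_iff' inj_pt fa (by norm_num)).2 (beq_iff.1 h)
  have cj : ∀ {k}, trAny 24 5 L24.tail.tail.tail [1, 2, 3] p.1 (powC 24 5 p.1 k) = true → IsConj x (x ^ k) := fun h =>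
    let ⟨g, _, e⟩ := (trAny_iff inj_pt fa (by norm_num) (by norm_num) ch r (r.powC (by norm_num) _) _).1 h
    isConj_iff.2 ⟨g, e⟩
  simp only [tst, bor_eq_true, band_eq_true, Grp.anyL_iff, force_eq] at t
  rcases t with t | ⟨t, y, hy, a, b, c⟩ | ⟨t, a⟩ | ⟨⟨t, a⟩, b, c⟩
  · exact .inl (o t)
  · obtain ⟨g, -, r1⟩ := inT (l := lY) (by decide +kernel) y hy
    have r2 := r1.cjC (by norm_num) a r
    refine .inr (.inl ⟨o t, g, (trP_iff inj_pt fa r2 r2 r).2 b, ?_⟩)
    rw [← (((r.mul r2).mul (r1.cjC (by norm_num) a r2)).eq_one_iff' inj_pt fa (by norm_num)).2 (beq_iff.1 c), sq]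
    group
  · exact .inr (.inr (.inl ⟨o t, cj a⟩))
  · refine .inr (.inr (.inr ⟨o t, ?_, _, e16 r b c⟩))
    rw [← eq_inv_of_mul_eq_one_left ((pow_succ x 4).symm.trans (o t))]
    exact cj a

end L34

/-- For `M ∈ SL₃(4)` with `tr M = a`, `tr M⁻¹ = b`, Cayley–Hamilton `M³ = a M² + b M + 1` shows in each of the sixteen cases
that `M³`, `M⁴`, `M⁵` or `M⁷` is scalar.  Then Sylow's theorem in the group of order `20160 = 2⁶ 3² 5 7` (all cases are
invariant under conjugation).  `x⁴ = 1`: `x` is conjugate into the unitriangular group (order 64), take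
`y = diag(1, ω, ω²)`.  `x⁷ = 1`: `x` is conjugate to a power of the companion matrix `C` of `X³ + X + 1`, and
`s C s⁻¹ = C²` for an explicit `s ∈ SL₃(2)`.  `x⁵ = 1`: conjugate to a power of `diag(1, A)`, `A ∈ SL₂(4)` of order five,
inverted in `SL₂(4)`; `E = {1 + a e₀₁ + b e₀₂}`, on which `SL₂(4)` acts as on `𝔽₄²`. -/
theorem l34_classes {K : Type} [Field K] [Fintype K] (hK : Fintype.card K = 4) (x : PSL(3, K)) :
    x ^ 3 = 1 ∨
    (x ^ 4 = 1 ∧ ∃ y, Commute x (y * x * y⁻¹) ∧ x * (y * x * y⁻¹) * (y ^ 2 * x * (y ^ 2)⁻¹) = 1) ∨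
    (x ^ 7 = 1 ∧ IsConj x (x ^ 2)) ∨ (x ^ 5 = 1 ∧ IsConj x x⁻¹ ∧ ∃ E, E16 E x) := by
  obtain ⟨g, h⟩ := Mathieu.cj21 (p := Golay.G.pt 0) (q := Golay.G.pt 1) (r := Golay.G.pt 2) (by decide) (by decide)
    (by decide)
  obtain ⟨e⟩ := Agent.S0380.result (Golay.G.pt 0) (Golay.G.pt 1) (Golay.G.pt 2) (by decide) (by decide) (by decide) K hK
  obtain ⟨y, rfl⟩ := (h.equiv.trans e).surjective x
  exact (L34.cl_m21 y).map _

variable {F : Type*} [Field F] {Y T : Type*} [Group Y] [Group T] {π : Y →* T} {ρ : Y →* GL (Fin 4) F}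

namespace PR

variable (h : PR π ρ)
include h

theorem tr_of_not_comm {a b : Y} (hc : Commute (π a) (π b)) (hn : ¬ Commute a b) : tr (ρ a) = 0 := by
  obtain ⟨c, -, e⟩ := h.exists_smul (g := a) (g' := b * a * b⁻¹) (by rw [map_mul, map_mul, map_inv, ← hc.eq]; simp)
  refine tr_eq_zero (t := ρ b) (c := c) (by simpa using e) fun c1 => hn ?_
  rw [c1, one_smul] at e
  exact (mul_inv_eq_iff_eq_mul.1 (h.inj (Units.ext e))).symm

theorem tr_smul {a b : Y} (e : π a = π b) : ∃ c : F, c ^ 4 = 1 ∧ tr (ρ b) = c * tr (ρ a) ∧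
    tr (ρ b)⁻¹ = c ^ 3 * tr (ρ a)⁻¹ := by
  obtain ⟨c, hc, e⟩ := h.exists_smul e
  rw [Fintype.card_fin] at hc
  have : ((ρ b)⁻¹).1 = c ^ 3 • ((ρ a)⁻¹).1 := Units.inv_eq_of_mul_eq_one_right (by
    rw [e, Matrix.smul_mul, Matrix.mul_smul, smul_smul, ← pow_succ', hc, one_smul, Units.mul_inv])
  exact ⟨c, hc, by rw [tr, e, Matrix.trace_smul]; rfl, by rw [tr, this, Matrix.trace_smul]; rfl⟩

/-- If all lifts of elements of `E` commuted, `wtY` (over the algebraic closure, `A = π⁻¹ E`, a lift of `x`) would show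
that `x³` or `x⁴`, hence `x`, centralises `E`.  So two lifts `a, b` have `b a b⁻¹ = c a` with `c ≠ 1`, `tr a = 0`
(`tr_eq_zero`), `π a ≠ 1`; use `conj` and `exists_smul`. -/
theorem tr_e16 (h2 : (2 : F) ≠ 0) {E : Subgroup T} {x : T} (hE : E16 E x) (hx : x ^ 5 = 1) {a : Y} (ha : π a ∈ E)
    (h1 : π a ≠ 1) : tr (ρ a) = 0 := by
  have ab : ∀ a ∈ E, ∀ b ∈ E, Commute a b := fun a ha b hb => by
    have i : ∀ e ∈ E, e⁻¹ = e := fun e he => inv_eq_of_mul_eq_one_left (sq e ▸ hE.sq e he)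
    rw [Commute, SemiconjBy, ← i _ (mul_mem ha hb), mul_inv_rev, i a ha, i b hb]
  obtain ⟨a0, m, b, mb, n⟩ : ∃ a0, π a0 ∈ E ∧ ∃ b, π b ∈ E ∧ ¬ Commute a0 b := by
    by_contra! k
    obtain ⟨g, rfl⟩ := h.surj x
    have h' := h.map (algebraMap F (AlgebraicClosure F))
    obtain ⟨σ, hσ⟩ := wtY h'.inj {a | π a ∈ E} (fun a ha => k a ha) (fun a ha => ⟨2 * 4, by
      have := (map_ne_zero (algebraMap F (AlgebraicClosure F))).2 h2
      rw [map_ofNat] at this
      rw [show ((2 * 4 : ℕ) : AlgebraicClosure F) = 2 ^ 3 by norm_num]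
      exact pow_ne_zero _ this,
      by rw [pow_mul]; exact h.pow_card (by rw [map_pow, hE.sq _ ha])⟩) (g := g)
      fun a ha => by simpa using hE.norm _ ha
    have : E = ⊥ := eq_bot_iff.2 fun e he => by
      obtain ⟨a, rfl⟩ := h.surj e
      have c := (hσ 24 (by simpa [Fintype.card_perm, Nat.factorial] using pow_card_eq_one (x := σ)) a he).map π
      rw [map_pow, eq_inv_of_mul_eq_one_left (a := π g ^ 24) (b := π g)
        (by rw [← pow_succ, show 24 + 1 = 5 * 5 from rfl, pow_mul, hx, one_pow]), Commute.inv_left_iff] at c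
      exact hE.fpf _ he c
    have c := hE.card
    simp [this] at c
  obtain ⟨g, -, e⟩ := hE.conj _ m _ ha (fun e => n (h.comm e b).symm) h1
  obtain ⟨g, rfl⟩ := h.surj g
  obtain ⟨c, -, e', -⟩ := h.tr_smul (a := g * a0 * g⁻¹) (b := a) (by simpa using e)
  rw [e', map_mul, map_mul, map_inv, tr_conj, h.tr_of_not_comm (ab _ m _ mb) n, mul_zero]

/-- Choose lifts `ε e` of `e ∈ E`.  `tr (ε e * (ε e')⁻¹) = 0` for `e ≠ e'` and `4` for `e = e'`, so the sixteen matrices are
a basis of `M₄(F)`.  `Φ A = ∑ (ε e)⁻¹ A (ε e)` commutes with every `ε e'` (the summand does not depend on the lift), so it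
is the scalar `4 tr A`.  Then `4 tr u tr u⁻¹ = tr (Φ u * u⁻¹) = ∑ tr ((ε e)⁻¹ (u (ε e) u⁻¹)) = 4` by `fpf`. -/
theorem tr_mul_tr (h2 : (2 : F) ≠ 0) {E : Subgroup T} {u : Y} (hE : E16 E (π u)) (hx : π u ^ 5 = 1) :
    tr (ρ u) * tr (ρ u)⁻¹ = 1 := by
  classical
  have : Finite E := Nat.finite_of_card_ne_zero (by rw [hE.card]; norm_num)
  have := Fintype.ofFinite E
  choose ε hε using fun e : E => h.surj e
  have h4 : (4 : F) ≠ 0 := by rw [show (4 : F) = 2 * 2 by norm_num]; exact mul_ne_zero h2 h2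
  have li : LinearIndependent F fun e => (ρ (ε e)).1 := .of_pairwise_dual_eq_zero_one _
    (fun e => (4 : F)⁻¹ • (Matrix.traceLinearMap _ F F ∘ₗ LinearMap.mulLeft F ((ρ (ε e))⁻¹).1))
    (fun i j n => by
      have := h.tr_e16 h2 hE hx (a := (ε i)⁻¹ * ε j) (by simpa [hε] using mul_mem (inv_mem i.2) j.2)
        (by simpa [hε, inv_mul_eq_one] using n)
      rw [map_mul, map_inv, tr, Units.val_mul] at this
      simp only [LinearMap.smul_apply, LinearMap.comp_apply, LinearMap.mulLeft_apply, Matrix.traceLinearMap_apply, this,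
        smul_zero])
    fun i => by
      simp only [LinearMap.smul_apply, LinearMap.comp_apply, LinearMap.mulLeft_apply, Matrix.traceLinearMap_apply,
        Units.inv_mul, Matrix.trace_one, Fintype.card_fin, smul_eq_mul]
      exact inv_mul_cancel₀ h4
  let B := basisOfLinearIndependentOfCardEqFinrank li (by
    rw [← Nat.card_eq_fintype_card, hE.card, Module.finrank_matrix]; simp)
  have hB : ∀ e, B e = (ρ (ε e)).1 := fun e => by simp [B]
  let Φ : Matrix (Fin 4) (Fin 4) F →ₗ[F] Matrix (Fin 4) (Fin 4) F := LinearMap.mulLeftRight F ((ρ u).1, ((ρ u)⁻¹).1)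
  have t1 : LinearMap.trace F _ Φ = tr (ρ u) * tr (ρ u)⁻¹ := by
    rw [LinearMap.trace_eq_matrix_trace F (Matrix.stdBasis F (Fin 4) (Fin 4)), tr, tr, Matrix.trace, Matrix.trace,
      Matrix.trace, Finset.sum_mul_sum, Fintype.sum_prod_type]
    refine Finset.sum_congr rfl fun i _ => Finset.sum_congr rfl fun j _ => ?_
    rw [Matrix.diag, LinearMap.toMatrix_apply, Matrix.stdBasis_eq_single]
    simp [Φ, Matrix.stdBasis, Matrix.mul_apply, Matrix.single, ite_and, Finset.sum_ite_eq]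
  rw [← t1, LinearMap.trace_eq_matrix_trace F B, Matrix.trace, Finset.sum_eq_single 1]
  · obtain ⟨c, -, e⟩ := h.exists_smul (g := 1) (g' := ε 1) (by simp [hε])
    rw [Matrix.diag, LinearMap.toMatrix_apply, show Φ (B 1) = B 1 by simp [Φ, hB, e], B.repr_self, Finsupp.single_eq_same]
  · intro e _ n
    obtain ⟨c, -, k⟩ := h.exists_smul (g := ε ⟨_, hE.norm e e.2⟩) (g' := u * ε e * u⁻¹) (by simp [hε])
    rw [Matrix.diag, LinearMap.toMatrix_apply, show Φ (B e) = c • B ⟨_, hE.norm e e.2⟩ by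
      rw [hB, hB, ← k]; simp [Φ], map_smul, B.repr_self, Finsupp.smul_apply, Finsupp.single_eq_of_ne, smul_zero]
    exact fun q => n (Subtype.ext (hE.fpf e e.2 (mul_inv_eq_iff_eq_mul.1 (congrArg Subtype.val q).symm)))
  · simp

/-- Let `g' = y g y⁻¹`, `g'' = y² g y⁻²`.  `g' g g'⁻¹ = κ g`; if `κ ≠ 1` use `tr_eq_zero` (also for `g⁻¹`).  Otherwise
`g, g', g''` commute (`g g' g''` is central), `g⁴ = g'⁴ = g''⁴ = c` is central, and `c³ = (g g' g'')⁴ = 1 = c⁴`. -/
theorem four_or {g y : Y} (h4 : π g ^ 4 = 1) (hc : Commute (π g) (π y * π g * (π y)⁻¹))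
    (h1 : π g * (π y * π g * (π y)⁻¹) * (π y ^ 2 * π g * (π y ^ 2)⁻¹) = 1) :
    g ^ 4 = 1 ∨ (tr (ρ g) = 0 ∧ tr (ρ g)⁻¹ = 0) := by
  have hc' : Commute (π g) (π (y * g * y⁻¹)) := by simpa using hc
  by_cases k : Commute g (y * g * y⁻¹)
  swap
  · exact .inr ⟨h.tr_of_not_comm hc' k, map_inv ρ g ▸ h.tr_of_not_comm (map_inv π g ▸ hc'.inv_left)
      (by rwa [Commute.inv_left_iff])⟩
  have z4 : π (g ^ 4) = 1 := by rw [map_pow, h4]
  have cj : ∀ t : Y, (t * g * t⁻¹) ^ 4 = g ^ 4 := fun t => by rw [conj_pow, h.comm z4, mul_inv_cancel_right]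
  have z : π (g * (y * g * y⁻¹) * (y ^ 2 * g * (y ^ 2)⁻¹)) = 1 := by simpa using h1
  have e := h.pow_card z
  have c : Commute (g * (y * g * y⁻¹)) (y ^ 2 * g * (y ^ 2)⁻¹) := by
    have := (show Commute _ _ from h.comm z (g * (y * g * y⁻¹))⁻¹).eq
    rw [inv_mul_cancel_left, eq_mul_inv_iff_mul_eq] at this
    exact this.symm
  rw [Fintype.card_fin, c.mul_pow, k.mul_pow, cj, cj] at e
  have e' := h.pow_card z4
  rw [Fintype.card_fin, pow_succ (g ^ 4) 3, pow_three', e, one_mul] at e'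
  exact .inl e'

end PR

/-- `(tr g)³ = tr (g³)` (`tr_pow_char`).  The claim does not depend on the lift (`c³ = c⁻¹` for `c⁴ = 1`).  Order three:
`tr_unip`.  Order seven: `g⁻¹ ~ g⁻⁴ = g³`.  Order five: `τ² = 1`.  `g⁴ = 1`: `g³ = g⁻¹`. -/
theorem Cov.l34 [CharP F 3] {P : Subgroup (GL (Fin 4) F)} {K : Type} [Field K] [Fintype K]
    (hK : Fintype.card K = 4) {π : P →* PSL(3, K)} (h : Cov P π) : Pm 3 P := by
  have : Fact (Nat.Prime 3) := ⟨Nat.prime_three⟩
  have h3 : (3 : F) = 0 := by exact_mod_cast CharP.cast_eq_zero F 3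
  have h2 : (2 : F) ≠ 0 := fun e => one_ne_zero (α := F) (by linear_combination h3 - e)
  have r := h.pr
  suffices ∀ g : P, ∃ a : P, π a = π g ∧ tr (P.subtype a)⁻¹ = tr (P.subtype a) ^ 3 from fun g hg => by
    obtain ⟨a, e, k⟩ := this ⟨g, hg⟩
    obtain ⟨c, -, e1, e2⟩ := r.tr_smul e
    exact e2.trans (by rw [k, ← mul_pow, ← e1]; rfl)
  intro g
  rcases l34_classes hK (π g) with k | ⟨k, y, a, b⟩ | ⟨k, a⟩ | ⟨k, a, E, b⟩
  · obtain ⟨u, e, hu⟩ := r.exists_lift k (by decide)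
    refine ⟨u, e, ?_⟩
    have : P.subtype u ^ 3 ^ 1 = 1 := by rw [pow_one, ← map_pow, hu, map_one]
    rw [tr_unip 3 this, tr_unip 3 (n := 1) (by rw [inv_pow, this, inv_one]), Fintype.card_fin]
    linear_combination (-20 : F) * h3
  · obtain ⟨y, rfl⟩ := r.surj y
    refine ⟨g, rfl, ?_⟩
    rcases r.four_or k a b with c | ⟨c, d⟩
    · rw [← tr_pow_char 3, ← map_pow, ← map_inv, ← eq_inv_of_mul_eq_one_left ((pow_succ g 3).symm.trans c)]
    · rw [c, d]; simp
  · obtain ⟨u, e, hu⟩ := r.exists_lift k (by decide)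
    refine ⟨u, e, ?_⟩
    rw [← tr_pow_char 3, ← map_pow, ← map_inv]
    refine r.tr_eq (n := 7) (by rw [inv_pow, hu, inv_one]) (by rw [← pow_mul, mul_comm, pow_mul, hu, one_pow])
      (by decide) ?_
    obtain ⟨t, ht⟩ := isConj_iff.1 a
    rw [map_inv, map_pow, e, ← eq_inv_of_mul_eq_one_left ((pow_succ (π g) 6).symm.trans k)]
    refine (isConj_iff.2 ⟨t, ?_⟩).symm
    rw [← conj_pow, ht, ← pow_mul]
  · obtain ⟨u, e, hu⟩ := r.exists_lift k (by decide)
    refine ⟨u, e, ?_⟩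
    have c := r.tr_mul_tr h2 (e ▸ b) (e ▸ k)
    have d := r.tr_eq (g := u) (g' := u⁻¹) hu (by rw [inv_pow, hu, inv_one]) (by decide) (by rwa [map_inv, e])
    rw [map_inv] at d
    rw [← d] at c ⊢
    linear_combination (-tr (P.subtype u)) * c

end Cfsg.Lib.Q4
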