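import Cfsg.Agent.Lib.Q4.ObP
import Cfsg.Agent.Lib.Schur.Basic

/-!
# Traces of elements of small order in `SL₄`; kernels of covers

Pass to the algebraic closure (`tr_map`).  If the order is the characteristic use `tr_unip`; otherwise `exists_dg`
makes `g = dg a` with `a i = ζ ^ (k i)`, `exists_wt` turns a conjugacy `g ~ g²` into a permutation `σ` with
`2 k (σ j) = k j`, and `decide` lists the possibilities for `k`.
-/

set_option autoImplicit false
set_option synthInstance.maxSize 1000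
set_option linter.unusedSectionVars false

namespace Cfsg.Lib.Q4

open scoped MatrixGroups Matrix commutatorElement
open Cfsg.Geo Equiv
open Cfsg.Lib.Q4R (dg sc)

variable {F : Type*} [Field F] {g : GL (Fin 4) F}

local notation "𝕂" => AlgebraicClosure F
local notation "𝔣" => algebraMap F (AlgebraicClosure F)

/-- Extension of scalars followed by a change of basis. -/
structure Ch (φ : GL (Fin 4) F →* GL (Fin 4) 𝕂) : Prop where
  inj : Function.Injective φ
  tr : ∀ x, tr (φ x) = 𝔣 (tr x)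
  det : ∀ (x : GL (Fin 4) F) (c : F), ((φ x).1 - 𝔣 c • 1).det = 𝔣 (x.1 - c • 1).det
  smul : ∀ (x y : GL (Fin 4) F) (c : F), x.1 = c • y.1 → (φ x).1 = 𝔣 c • (φ y).1
  scal : ∀ x, φ x ∈ scalars (Fin 4) 𝕂 ↔ x ∈ scalars (Fin 4) F

theorem ch_cjr (B : GL (Fin 4) 𝕂) : Ch (cjr B (Matrix.GeneralLinearGroup.map 𝔣)) := by
  have v (x : GL (Fin 4) F) : (cjr B (Matrix.GeneralLinearGroup.map 𝔣) x).1 = B.1 * x.1.map 𝔣 * (B⁻¹).1 := rfl
  refine ⟨(MulAut.conj B).injective.comp fun x y e => Units.ext (Matrix.map_injective (𝔣).injective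
    (congrArg Units.val e)), fun x => by rw [cjr_apply, tr_conj, tr_map], fun x c => ?_, fun x y c e => ?_,
    fun x => ?_⟩
  · rw [RingHom.map_det, ← Matrix.det_units_conj B ((𝔣).mapMatrix _), v]
    simp [Matrix.mul_sub, Matrix.sub_mul, Matrix.map_sub, Matrix.map_smul']
  · simp [v, e, Matrix.map_smul']
  · rw [← scal_map_iff 𝔣, cjr_apply]
    exact ⟨fun h => by rwa [mul_right_cancel ((comm_of_scalar h B⁻¹).symm.trans (by group) :
      _ = Matrix.GeneralLinearGroup.map 𝔣 x * B⁻¹)] at h,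
      fun h => by rwa [comm_of_scalar h B, mul_inv_cancel_right]⟩

theorem Ch.neg {φ : GL (Fin 4) F →* GL (Fin 4) 𝕂} (h : Ch φ) (x : GL (Fin 4) F) : φ (-x) = -φ x :=
  Units.ext (by simpa using h.smul (-x) x (-1) (by simp))

theorem Ch.det' {φ : GL (Fin 4) F →* GL (Fin 4) 𝕂} (h : Ch φ) (x : GL (Fin 4) F) :
    (φ x).1.det = 𝔣 x.1.det := by simpa using h.det x 0

theorem dg_inj {K : Type*} [Field K] : Function.Injective (dg : (Fin 4 → Kˣ) → GL (Fin 4) K) := fun _ _ e =>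
  funext fun i => Units.ext (congrFun (Matrix.diagonal_injective (congrArg Units.val e)) i)

theorem exists_ch {J : Type*} (A : J → GL (Fin 4) F) (hc : ∀ i j, Commute (A i) (A j)) {n : ℕ} (hn : (n : F) ≠ 0)
    (h : ∀ i, A i ^ n = 1) : ∃ φ, Ch φ ∧ ∀ i, ∃ a, φ (A i) = dg a :=
  let ⟨B, hB⟩ := exists_dg (fun i => Matrix.GeneralLinearGroup.map 𝔣 (A i)) (fun i j => (hc i j).map _)
    fun i => ⟨n, by rwa [← map_natCast 𝔣, map_ne_zero], by rw [← map_pow, h, map_one]⟩
  ⟨_, ch_cjr B, hB⟩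

theorem exists_ch1 {n : ℕ} (hn : (n : F) ≠ 0) (h : g ^ n = 1) : ∃ φ a, Ch φ ∧ φ g = dg a :=
  let ⟨φ, h1, h2⟩ := exists_ch (fun _ : Unit => g) (fun _ _ => Commute.refl g) hn fun _ => h
  let ⟨a, h3⟩ := h2 ()
  ⟨φ, a, h1, h3⟩

/-- The multiset `M` of the exponents of the weights. -/
theorem exists_ms {l : ℕ} (hn : (l : F) ≠ 0) (h : g ^ l = 1) : ∃ (ζ : 𝕂) (M : Multiset ℕ), IsPrimitiveRoot ζ l ∧
    (∃ a < l, ∃ b < l, ∃ c < l, ∃ d < l, M = {a, b, c, d}) ∧
    (∀ m, 𝔣 (tr (g ^ m)) = (M.map fun j => ζ ^ (j * m)).sum) ∧ 𝔣 g.1.det = ζ ^ M.sum ∧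
    (IsConj g (g ^ 2) → M.map (2 * · % l) = M) ∧ (M = {0, 0, 0, 0} → g = 1) ∧ (0 ∈ M → (g.1 - 1).det = 0) := by
  obtain ⟨φ, a, C, e⟩ := exists_ch1 hn h
  have : NeZero l := ⟨fun e => hn (by simp [e])⟩
  have : NeZero (l : 𝕂) := ⟨by rwa [← map_natCast 𝔣, map_ne_zero]⟩
  obtain ⟨ζ, hζ⟩ := HasEnoughRootsOfUnity.exists_primitiveRoot 𝕂 l
  have h1 : a ^ l = 1 := dg_inj (by rw [map_pow, ← e, ← map_pow, h, map_one, map_one])
  choose k hk ek using fun i => hζ.eq_pow_of_pow_eq_one (ξ := (a i : 𝕂)) (congrArg Units.val (congrFun h1 i))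
  refine ⟨ζ, Finset.univ.val.map k, hζ, ⟨_, hk 0, _, hk 1, _, hk 2, _, hk 3, rfl⟩, fun m => ?_, ?_, fun c => ?_,
    fun e0 => C.inj ?_, fun e0 => ?_⟩
  · rw [← C.tr, map_pow, e, ← map_pow, tr_dg, Multiset.map_map]
    exact Finset.sum_congr rfl fun i _ => by simp [pow_mul, ek]
  · rw [← C.det', e, det_dg, ← Finset.sum_eq_multiset_sum, ← Finset.prod_pow_eq_pow_sum]
    simp only [ek]
  · obtain ⟨t, ht⟩ := isConj_iff.1 c
    obtain ⟨σ, -, hσ⟩ := exists_wt (φ t)
    have := hσ a (a ^ 2) (by rw [map_pow, ← e, ← map_inv, ← map_mul, ← map_mul, ht, map_pow])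
    rw [Multiset.map_map, ← Multiset.map_univ_val_equiv σ, Multiset.map_map, Multiset.map_univ_val_equiv]
    refine Multiset.map_congr rfl fun j _ => hζ.pow_inj (Nat.mod_lt _ (NeZero.pos l)) (hk j) ?_
    rw [Function.comp, Function.comp, ← pow_eq_pow_mod _ hζ.pow_eq_one, ek, ← this j, pow_mul', ek]
    simp
  · rw [e, map_one, ← map_one dg]
    refine congrArg _ (funext fun i => Units.ext ?_)
    have : k i ∈ Finset.univ.val.map k := Multiset.mem_map_of_mem _ (Finset.mem_univ i)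
    rw [e0] at this
    rw [← ek, show k i = 0 by simpa using this]
    exact pow_zero ζ
  · obtain ⟨i, -, hi⟩ := Multiset.mem_map.1 e0
    have := C.det g 1
    rw [map_one, one_smul, one_smul, e, Q4R.dg_val, ← Matrix.diagonal_one, Matrix.diagonal_sub,
      Matrix.det_diagonal, Finset.prod_eq_zero (Finset.mem_univ i) (by rw [← ek, hi]; simp)] at this
    exact (map_eq_zero _).1 this.symm

theorem tr_char {l : ℕ} (hl : l.Prime) (h0 : (l : F) = 0) (h : g ^ l = 1) : tr g = 4 := by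
  have := Fact.mk hl
  have := (CharP.charP_iff_prime_eq_zero (R := F) hl).2 h0
  exact (tr_unip l (n := 1) (by rwa [pow_one])).trans (by simp)

theorem inv_eq_pow' {G : Type*} [Group G] {x : G} {n : ℕ} (h : x ^ (n + 1) = 1) : x⁻¹ = x ^ n :=
  inv_eq_of_mul_eq_one_left ((pow_succ x n).symm.trans h)
/-- The types with determinant one are `(0,0,0,0)`, `(0,0,1,2)`, `(1,1,2,2)`, `(0,1,1,1)`, `(0,2,2,2)`; the last two have
`tr g - tr g⁻¹ = ± 3 (ω - ω²)`. -/
theorem tr3 (hd : g.1.det = 1) (h : g ^ 3 = 1) (r : tr g⁻¹ = tr g) : tr g = 4 ∨ tr g = 1 ∨ tr g = -2 := by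
  by_cases h0 : ((3 : ℕ) : F) = 0
  · exact Or.inl (tr_char Nat.prime_three h0 h)
  obtain ⟨ζ, M, hζ, ⟨a, ha, b, hb, c, hc, d, hd', e⟩, h1, h2, -⟩ := exists_ms h0 h
  have h3 := hζ.geom_sum_eq_zero (by norm_num)
  have h4 := hζ.pow_eq_one
  have h5 := h1 2
  have h6 := h1 1
  have h7 : (3 : AlgebraicClosure F) ≠ 0 := by rwa [← map_ofNat (algebraMap F _), map_ne_zero]
  have h8 : ζ ^ 1 ≠ ζ ^ 2 := fun e => by simpa using hζ.pow_inj (by norm_num) (by norm_num) e
  rw [hd, map_one, eq_comm, hζ.pow_eq_one_iff_dvd] at h2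
  rw [← inv_eq_pow' h, r] at h5
  rw [pow_one] at h6
  simp only [← (algebraMap F (AlgebraicClosure F)).injective.eq_iff, map_neg, map_ofNat, map_one]
  simp only [Finset.sum_range_succ, Finset.sum_range_zero] at h3
  obtain rfl | rfl | rfl | rfl | rfl : M = {0, 0, 0, 0} ∨ M = {0, 0, 1, 2} ∨ M = {1, 1, 2, 2} ∨ M = {0, 1, 1, 1} ∨
      M = {0, 2, 2, 2} := by
    subst e
    clear h1 h5 h6
    revert a b c d
    decide +kernel
  all_goals simp only [Multiset.insert_eq_cons, Multiset.map_cons, Multiset.sum_cons, Multiset.map_singleton,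
    Multiset.sum_singleton] at h5 h6
  · exact Or.inl (by linear_combination h6)
  · exact Or.inr (Or.inl (by linear_combination h6 + h3))
  · exact Or.inr (Or.inr (by linear_combination h6 + 2 * h3))
  · exact (h8 (mul_left_cancel₀ h7 (by linear_combination h5 - h6))).elim
  · exact (h8 (mul_left_cancel₀ h7 (by linear_combination h6 - h5 - 3 * ζ * h4))).elim

theorem tr5 (h : g ^ 5 = 1) (c : IsConj g (g ^ 2)) : tr g = 4 ∨ tr g = -1 := by
  by_cases h0 : ((5 : ℕ) : F) = 0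
  · exact Or.inl (tr_char Nat.prime_five h0 h)
  obtain ⟨ζ, M, hζ, ⟨a, ha, b, hb, c', hc, d, hd', e⟩, h1, -, h2, -⟩ := exists_ms h0 h
  have h3 := hζ.geom_sum_eq_zero (by norm_num)
  have h6 := h1 1
  replace h2 := h2 c
  rw [pow_one] at h6
  simp only [← (algebraMap F (AlgebraicClosure F)).injective.eq_iff, map_neg, map_ofNat, map_one]
  simp only [Finset.sum_range_succ, Finset.sum_range_zero] at h3
  obtain rfl | rfl : M = {0, 0, 0, 0} ∨ M = {1, 2, 3, 4} := by
    subst e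
    clear h1 h6
    revert a b c' d
    decide +kernel
  all_goals simp only [Multiset.insert_eq_cons, Multiset.map_cons, Multiset.sum_cons, Multiset.map_singleton,
    Multiset.sum_singleton] at h6
  · exact Or.inl (by linear_combination h6)
  · exact Or.inr (by linear_combination h6 + h3)

theorem ms7 : ∀ a < 7, ∀ b < 7, ∀ c < 7, ∀ d < 7, ∀ M : Multiset ℕ, M = {a, b, c, d} → M.map (2 * · % 7) = M →
    M = {0, 0, 0, 0} ∨ M = {0, 1, 2, 4} ∨ M = {0, 3, 5, 6} := by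
  simp only [forall_eq]
  decide +kernel
/-- the weights are `1, ζ, ζ², ζ⁴` for a primitive seventh root of unity `ζ` -/
theorem tr7 (h : g ^ 7 = 1) (h1 : g ≠ 1) (c : IsConj g (g ^ 2)) :
    (tr g - 1) ^ 2 + (tr g - 1) + 2 = 0 ∧ tr g⁻¹ = 1 - tr g := by
  by_cases h0 : ((7 : ℕ) : F) = 0
  · rw [tr_char (by norm_num) h0 h, tr_char (by norm_num) h0 (show g⁻¹ ^ 7 = 1 by rw [inv_pow, h, inv_one])]
    exact ⟨by linear_combination 2 * h0, by linear_combination h0⟩
  obtain ⟨ζ, M, hζ, ⟨a, ha, b, hb, c', hc, d, hd', e⟩, h5, -, h2, h7, -⟩ := exists_ms h0 h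
  have h3 := hζ.geom_sum_eq_zero (by norm_num)
  have h4 := hζ.pow_eq_one
  have h6 := h5 1
  replace h5 := h5 6
  rw [pow_one] at h6
  rw [← inv_eq_pow' h] at h5
  simp only [← (algebraMap F (AlgebraicClosure F)).injective.eq_iff, map_add, map_sub, map_pow, map_ofNat, map_one,
    map_zero, h5, h6]
  simp only [Finset.sum_range_succ, Finset.sum_range_zero] at h3
  obtain e | rfl | rfl := ms7 a ha b hb c' hc d hd' M e (h2 c)
  · exact (h1 (h7 e)).elim
  all_goals simp only [Multiset.insert_eq_cons, Multiset.map_cons, Multiset.sum_cons, Multiset.map_singleton,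
    Multiset.sum_singleton]
  · exact ⟨by grind, by grind⟩
  · exact ⟨by grind, by grind⟩

/-- `det (g - 1) = 0` (in characteristic seven `(g - 1) ^ 7 = 0`); `Matrix.exists_mulVec_eq_zero_iff` -/
theorem fix7 (h : g ^ 7 = 1) (c : IsConj g (g ^ 2)) : ∃ v, v ≠ 0 ∧ g.1 *ᵥ v = v := by
  refine (Matrix.exists_mulVec_eq_zero_iff (M := g.1 - 1).2 ?_).imp fun v hv => ⟨hv.1, by
    simpa [Matrix.sub_mulVec, sub_eq_zero] using hv.2⟩
  by_cases h0 : ((7 : ℕ) : F) = 0
  · have := Fact.mk (show Nat.Prime 7 by norm_num)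
    have := (CharP.charP_iff_prime_eq_zero (R := F) this.1).2 h0
    refine eq_zero_of_pow_eq_zero (n := 7) ?_
    rw [← Matrix.det_pow, sub_pow_char_of_commute _ (Commute.one_right _), ← Units.val_pow_eq_pow_val, h]
    simp
  obtain ⟨ζ, M, -, ⟨a, ha, b, hb, c', hc, d, hd', e⟩, -, -, h2, -, h7⟩ := exists_ms h0 h
  obtain rfl | rfl | rfl := ms7 a ha b hb c' hc d hd' M e (h2 c) <;> exact h7 (by simp)

/-- The weights are `±i`; the determinant makes the multiplicities even. -/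
theorem tr_of_sq (h2 : (2 : F) ≠ 0) (hd : g.1.det = 1) (h : g ^ 2 = -1) (hs : g ∉ scalars (Fin 4) F) :
    tr g = 0 := by
  obtain ⟨φ, a, C, e⟩ := exists_ch1 (n := 2 * 2) (by rw [Nat.cast_mul]; exact mul_ne_zero h2 h2) (show g ^ (2 * 2) = 1 by rw [pow_mul, h]; simp)
  have h1 (i) : (a i : AlgebraicClosure F) ^ 2 = -1 := by
    have := congrArg (fun x => (φ x).1 i i) h
    simpa [C.neg, e, Q4R.dg_val, Matrix.diagonal_pow] using this
  have h3 := C.det' g
  have h4 : (2 : AlgebraicClosure F) ≠ 0 := by rwa [← map_ofNat (algebraMap F _), map_ne_zero]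
  have h5 : ¬ ∀ i, (a i : AlgebraicClosure F) = a 0 := fun h => hs ((C.scal g).1 (mem_scalars_iff'.2 ⟨a 0, by
    rw [e, Q4R.dg_val, Matrix.smul_one_eq_diagonal, funext h]⟩))
  rw [← map_eq_zero (algebraMap F (AlgebraicClosure F)), ← C.tr, e, tr_dg, Fin.sum_univ_four]
  rw [hd, e, det_dg, map_one, Fin.prod_univ_four] at h3
  have k (i) := sq_eq_sq_iff_eq_or_eq_neg.1 ((h1 i).trans (h1 0).symm)
  have := h1 0
  simp only [Fin.forall_fin_succ, Fin.succ_zero_eq_one, Fin.succ_one_eq_two, Fin.reduceSucc] at h5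
  rcases k 1 with e1 | e1 <;> rcases k 2 with e2 | e2 <;> rcases k 3 with e3 | e3 <;>
    simp only [e1, e2, e3] at h3 h5 ⊢ <;> first | ring1 | (simp at h5; done) | exact (h4 (by grind)).elim

/-- Diagonalise `g = dg a`.  `s` commutes with `g²` but not with `g`, so `a i = - a j` for some `i, j` (`wt_of_comm`,
`comm_of_wt`).  `t⁻¹ g t = c g⁻¹`-type relation: `exists_wt` for `t` gives `σ` with `a (σ k) = c (a k)⁻¹` and
`a (σ k) ^ 2 = - a k ^ 2`.  So `i, j, σ i, σ j` are the four indices and `a (σ i) = - a (σ j)`. -/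
theorem tr_of_four (h2 : (2 : F) ≠ 0) {n : ℕ} (hn : g ^ 2 ^ n = 1) {s t : GL (Fin 4) F} {c : F}
    (s2 : Commute s (g ^ 2)) (s1 : ¬ Commute s g) (t1 : (t * g * t⁻¹).1 = c • (g⁻¹).1)
    (t2 : t * g ^ 2 * t⁻¹ = -g ^ 2) : tr g = 0 := by
  obtain ⟨φ, a, C, e⟩ := exists_ch1 (n := 2 ^ n) (by simpa using fun e => (h2 e).elim) hn
  have h4 : (2 : AlgebraicClosure F) ≠ 0 := by rwa [← map_ofNat (algebraMap F _), map_ne_zero]
  obtain ⟨i, j, h0, hij⟩ : ∃ i j, (φ s).1 i j ≠ 0 ∧ a i ≠ a j := by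
    by_contra! k
    exact s1 (C.inj (by rw [map_mul, map_mul, e, (comm_of_wt k).eq]))
  have h1 := wt_of_comm (a := a ^ 2) (by rw [map_pow, ← e, ← map_pow]; exact s2.map φ) h0
  have c0 : algebraMap F (AlgebraicClosure F) c ≠ 0 := (map_ne_zero _).2 fun k => by
    rw [k, zero_smul] at t1
    exact Units.ne_zero _ t1
  obtain ⟨σ, -, hσ⟩ := exists_wt (φ t)
  have h5 := hσ a (fun k => Units.mk0 _ c0 * (a k)⁻¹) (Units.ext (by
    rw [← e, ← map_inv, ← map_mul, ← map_mul, C.smul _ _ _ t1, map_inv, e, ← map_inv, Q4R.dg_val, Q4R.dg_val,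
      ← Matrix.diagonal_smul]
    rfl))
  have h6 := hσ (a ^ 2) (-a ^ 2) (by
    rw [map_pow, ← e, ← map_pow, ← map_inv, ← map_mul, ← map_mul, t2, C.neg, map_pow, e, ← map_pow]
    exact Units.ext (by simp [Q4R.dg_val, Matrix.diagonal_neg, Matrix.diagonal_pow]))
  have h7 : (a j : AlgebraicClosure F) = -a i :=
    (sq_eq_sq_iff_eq_or_eq_neg.1 (by exact_mod_cast h1.symm)).resolve_left fun k => hij (Units.ext k.symm)
  have h8 : (a (σ j) : AlgebraicClosure F) = -a (σ i) := by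
    have k (k) : algebraMap F (AlgebraicClosure F) c = a k * a (σ k) := congrArg Units.val (mul_inv_eq_iff_eq_mul.1 (h5 k))
    exact mul_left_cancel₀ (a i).ne_zero (by linear_combination k j - k i + (a (σ j) : AlgebraicClosure F) * h7)
  have h9 (k l) (e : (a ^ 2) l = (a ^ 2) k) : σ k ≠ l := fun e' => by
    have := congrArg Units.val ((e' ▸ h6 k).trans e.symm)
    simp only [Pi.neg_apply, Units.val_neg] at this
    exact mul_ne_zero h4 ((a ^ 2) l).ne_zero (by linear_combination -this)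
  have h10 : i ≠ j := fun e => hij (e ▸ rfl)
  have h11 : ∀ i j k l : Fin 4, i ≠ j → k ≠ l → k ≠ i → k ≠ j → l ≠ i → l ≠ j → Finset.univ = {i, j, k, l} := by
    decide
  have h12 := h9 i i rfl
  have h13 := h9 i j h1.symm
  have h14 := h9 j i h1
  have h15 := h9 j j rfl
  have h16 := σ.injective.ne h10
  rw [← map_eq_zero (algebraMap F (AlgebraicClosure F)), ← C.tr, e, tr_dg, h11 _ _ _ _ h10 h16 h12 h13 h14 h15,
    Finset.sum_insert (by simp [h10, h12.symm, h14.symm]), Finset.sum_insert (by simp [h13.symm, h15.symm]),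
    Finset.sum_pair h16, h7, h8]
  ring

variable {P : Subgroup (GL (Fin 4) F)}

/-- `π` is a stem extension (`P` is perfect); move `P` to `Type` (`Shrink.{0} P`, or the regular representation on
`Fin n`).  So `z ^ 6 = 1`, and `z ^ 4 = 1` (`PR.pow_card`). -/
theorem Cov.ker_sq [Finite F] {T : Type} [Group T] {π : P →* T} (h : Cov P π) {m : ℕ} (hm : m ∣ 6)
    (hT : HasCyclicSchurMultiplier T m) {z : P} (hz : π z = 1) : z.1 = 1 ∨ z.1 = -1 := by
  obtain ⟨τ, hτ⟩ := Schur.exists_surjective_ker hT (σ := π) ⟨h.surj, fun z hz => Subgroup.mem_center_iff.2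
    (h.pr.comm hz), fun z _ => by
      rw [show commutator P = ⊤ from Subgroup.map_injective P.subtype_injective (by
        rw [P.map_subtype_commutator, h.qs.perfect, ← MonoidHom.range_eq_map, P.range_subtype])]
      trivial⟩
  have h1 : z ^ 6 = 1 := by
    obtain ⟨k, e⟩ := hτ ⟨z, hz⟩
    obtain ⟨n, hn⟩ := hm
    have : k ^ m = 1 := by rw [← ofAdd_toAdd k, ← ofAdd_nsmul, nsmul_eq_mul, ZMod.natCast_self, zero_mul, ofAdd_zero]
    rw [show z = τ k from (congrArg Subtype.val e).symm, ← SubgroupClass.coe_pow, ← map_pow, hn, pow_mul, this, one_pow,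
      map_one, OneMemClass.coe_one]
  have h2 : z ^ 2 = 1 := by
    rwa [show 6 = 4 + 2 from rfl, pow_add, show z ^ 4 = 1 from h.pr.pow_card hz, one_mul] at h1
  obtain ⟨c, hc⟩ := mem_scalars_iff'.1 ((h.ker z).1 hz)
  have h3 := congrArg (fun x : P => x.1.1 0 0) h2
  simp only [SubgroupClass.coe_pow, Units.val_pow_eq_pow_val, hc, smul_pow, one_pow] at h3
  exact (sq_eq_one_iff.1 (show c ^ 2 = 1 by simpa using h3)).imp (fun e => Units.ext (by simp [hc, e]))
    fun e => Units.ext (by simp [hc, e])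

/-- `π` is bijective (`PR.bij`).  With `|P| = 2ⁿ m`, `g ^ 2ⁿ` has odd order, so
`(tr g⁻¹) ^ 2ⁿ = tr (g ^ 2ⁿ)⁻¹ = tr (g ^ 2ⁿ) = (tr g) ^ 2ⁿ` (`tr_pow_char_pow`). -/
theorem Cov.real_of_odd [Finite F] [CharP F 2] {T : Type*} [Group T] {π : P →* T} (h : Cov P π)
    (hr : ∀ x : T, Odd (orderOf x) → IsConj x x⁻¹) : Real P := fun g hg => by
  have := Finite.of_surjective π h.surj
  obtain ⟨n, m, hm, e⟩ := Nat.exists_eq_two_pow_mul_odd (orderOf_pos (π ⟨g, hg⟩)).ne'
  obtain ⟨t, ht⟩ := isConj_iff.1 (hr (π ⟨g, hg⟩ ^ 2 ^ n) (by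
    rw [orderOf_pow_of_dvd (by positivity) ⟨m, e⟩, e, Nat.mul_div_cancel_left _ (by positivity)]
    exact hm))
  obtain ⟨t, rfl⟩ := h.surj t
  rw [← map_pow, ← map_inv, ← map_inv, ← map_mul, ← map_mul, h.pr.bij.1.eq_iff] at ht
  refine (iterateFrobenius F 2 n).injective ?_
  rw [iterateFrobenius_def, iterateFrobenius_def, ← tr_pow_char_pow, ← tr_pow_char_pow, inv_pow,
    ← tr_conj (g ^ 2 ^ n) t.1]
  exact congrArg (fun x : P => tr x.1) ht.symm

end Cfsg.Lib.Q4
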