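import Cfsg.Agent.Lib.Q4.OB
import Cfsg.Prelude.Def_Classical

/-!
# `P / Z ≅ PSp₄(3)`: the traces lie in `𝔽_p[ω]`
-/

set_option autoImplicit false
set_option linter.unusedSectionVars false

namespace Cfsg.Lib.Q4

open scoped MatrixGroups Matrix commutatorElement
open Cfsg.Geo Equiv
open Cfsg.Lib.Q4R (dg sc)

/-- The class of `z` consists of elements that commute or braid, and the non-commuting graph has diameter two. -/
structure Braid {T : Type*} [Group T] (z : T) : Prop where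
  pair : ∀ d d', IsConj z d → IsConj z d' → Commute d d' ∨ d * d' * d = d' * d * d'
  conn : ∀ d d', IsConj z d → IsConj z d' → ∃ e, IsConj z e ∧ ¬ Commute d e ∧ ¬ Commute d' e

namespace U42

open Matrix

variable {K : Type} [Field K]

/-- The natural module. -/
abbrev V (K : Type) : Type := Fin 2 ⊕ Fin 2 → K

/-- The symplectic form. -/
def fm (v w : V K) : K := (J (Fin 2) K *ᵥ v) ⬝ᵥ w

/-- `t_v - 1`. -/
def E (v : V K) : Matrix (Fin 2 ⊕ Fin 2) (Fin 2 ⊕ Fin 2) K := vecMulVec v (J (Fin 2) K *ᵥ v)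

theorem fm_eq (v w : V K) :
    fm v w = -v (.inr 0) * w (.inl 0) - v (.inr 1) * w (.inl 1) + v (.inl 0) * w (.inr 0) + v (.inl 1) * w (.inr 1) := by
  simp [fm, J, mulVec, dotProduct, Fintype.sum_sum_type, Fin.sum_univ_two, one_apply]
  ring

theorem fm_self (v : V K) : fm v v = 0 := by rw [fm_eq]; ring

theorem fm_swap (v w : V K) : fm w v = -fm v w := by rw [fm_eq, fm_eq]; ring

theorem E_mul (v w : V K) : E v * E w = fm v w • vecMulVec v (J (Fin 2) K *ᵥ w) := by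
  rw [E, E, vecMulVec_mul_vecMulVec, vecMulVec_smul, fm]

theorem E_sq (v : V K) : E v * E v = 0 := by rw [E_mul, fm_self, zero_smul]

theorem E_tri (v w : V K) : E v * (E w * E v) = -(fm v w * fm v w) • E v := by
  rw [← mul_assoc, E_mul, smul_mul_assoc, E, vecMulVec_mul_vecMulVec, vecMulVec_smul, ← fm, fm_swap v w, smul_smul,
    mul_neg]

/-- The transvection. -/
def t (v : V K) : symplecticGroup (Fin 2) K := ⟨1 + E v, SymplecticGroup.mem_iff.2 (by
  have a : J (Fin 2) K *ᵥ (J (Fin 2) K *ᵥ v) = -v := by rw [mulVec_mulVec, J_squared, neg_mulVec, one_mulVec]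
  have b : (J (Fin 2) K *ᵥ v) ᵥ* J (Fin 2) K = v := by
    rw [← mulVec_transpose, J_transpose, neg_mulVec, a, neg_neg]
  have c : v ⬝ᵥ J (Fin 2) K *ᵥ v = 0 := (dotProduct_comm _ _).trans (fm_self v)
  rw [transpose_add, transpose_one, E, transpose_vecMulVec, add_mul, one_mul, vecMulVec_mul, b, mul_add, mul_one,
    add_mul, mul_vecMulVec, a, vecMulVec_mul_vecMulVec, c]
  simp)⟩

theorem t_conj (g : symplecticGroup (Fin 2) K) (v : V K) : g * t v * g⁻¹ = t (g.1 *ᵥ v) := by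
  refine mul_inv_eq_iff_eq_mul.2 (Subtype.ext ?_)
  change g.1 * (1 + E v) = (1 + E (g.1 *ᵥ v)) * g.1
  rw [mul_add, add_mul, mul_one, one_mul, E, E, mul_vecMulVec, vecMulVec_mul, ← mulVec_transpose, mulVec_mulVec,
    mulVec_mulVec, SymplecticGroup.mem_iff'.1 g.2]

theorem t_comm {v w : V K} (h : fm v w = 0) : Commute (t v) (t w) := by
  refine Subtype.ext ?_
  change (1 + E v) * (1 + E w) = (1 + E w) * (1 + E v)
  simp only [mul_add, add_mul, mul_one, one_mul, E_mul, fm_swap v w, h, neg_zero, zero_smul]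
  abel

theorem t_br {v w : V K} (h : fm v w * fm v w = 1) : t v * t w * t v = t w * t v * t w := by
  refine Subtype.ext ?_
  change (1 + E v) * (1 + E w) * (1 + E v) = (1 + E w) * (1 + E v) * (1 + E w)
  simp only [mul_add, add_mul, mul_one, one_mul, mul_assoc, E_tri, E_sq, fm_swap v w, neg_mul_neg, h]
  module

theorem eq_of_br {G : Type*} [Group G] {a b : G} (h : a * b * a = b * a * b) (c : Commute a b) : a = b := by
  rw [c.eq] at h
  exact mul_left_cancel h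

theorem t_nc {v w : V K} (h : fm v w * fm v w = 1) :
    ¬ Commute (QuotientGroup.mk (t v) : PSp 2 K) (QuotientGroup.mk (t w)) := fun c => by
  have e := QuotientGroup.eq.1 (eq_of_br (congrArg (QuotientGroup.mk (s := Subgroup.center _)) (t_br h)) c)
  have := Subgroup.mem_center_iff.1 e (t v)
  have c' : Commute (t v) (t w) := by
    rw [mul_inv_cancel_left] at this
    exact (eq_inv_mul_iff_mul_eq.1 (this.trans (mul_assoc _ _ _)) :)
  have e' : E v = E w := add_left_cancel (congrArg Subtype.val (eq_of_br (t_br h) c'))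
  have k := E_tri v w
  rw [← e', E_sq, mul_zero, h, neg_smul, one_smul, eq_comm, neg_eq_zero] at k
  have k2 := congrArg (fun m => (J (Fin 2) K *ᵥ w) ⬝ᵥ m *ᵥ w) k
  simp only [E, vecMulVec_mulVec, op_smul_eq_smul, dotProduct_smul, ← fm.eq_1, fm_swap v w, zero_mulVec,
    dotProduct_zero, smul_eq_mul, mul_neg, h] at k2
  simp at k2

theorem ex_fm {v : V K} (h : v ≠ 0) : ∃ w, fm v w ≠ 0 := by
  by_contra! k
  refine h (funext fun i => ?_)
  rcases i with i | i <;> fin_cases i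
  · simpa [fm_eq] using k (Pi.single (.inr 0) 1)
  · simpa [fm_eq] using k (Pi.single (.inr 1) 1)
  · simpa [fm_eq] using k (Pi.single (.inl 0) 1)
  · simpa [fm_eq] using k (Pi.single (.inl 1) 1)

theorem ex_fm2 {v v' : V K} (h : v ≠ 0) (h' : v' ≠ 0) : ∃ w, fm v w ≠ 0 ∧ fm v' w ≠ 0 := by
  obtain ⟨w, a⟩ := ex_fm h
  obtain ⟨w', b⟩ := ex_fm h'
  by_cases c : fm v' w = 0
  · by_cases d : fm v w' = 0
    · exact ⟨w + w', by rwa [fm, dotProduct_add, ← fm, ← fm, d, add_zero], by rwa [fm, dotProduct_add, ← fm, ← fm, c, zero_add]⟩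
    · exact ⟨w', d, b⟩
  · exact ⟨w, a, c⟩

theorem braid [Fintype K] (hK : Fintype.card K = 3) {v : V K} (hv : v ≠ 0) :
    Braid (QuotientGroup.mk (t v) : PSp 2 K) := by
  have sq : ∀ {a : K}, a ≠ 0 → a * a = 1 := fun {a} h => by
    have := FiniteField.pow_card_sub_one_eq_one a h
    rwa [hK, sq] at this
  have k : ∀ {d : PSp 2 K}, IsConj (QuotientGroup.mk (t v)) d → ∃ w, w ≠ 0 ∧ d = QuotientGroup.mk (t w) := fun e => by
    obtain ⟨g, rfl⟩ := isConj_iff.1 e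
    obtain ⟨g, rfl⟩ := QuotientGroup.mk_surjective g
    refine ⟨g.1 *ᵥ v, fun r => hv ?_, by rw [← t_conj]; rfl⟩
    have := congrArg ((g⁻¹).1 *ᵥ ·) r
    simp only [mulVec_mulVec, mulVec_zero] at this
    rwa [show (g⁻¹).1 * g.1 = 1 from congrArg Subtype.val (inv_mul_cancel g), one_mulVec] at this
  refine ⟨fun d d' e e' => ?_, fun d d' e e' => ?_⟩
  · obtain ⟨w, -, rfl⟩ := k e
    obtain ⟨w', -, rfl⟩ := k e'
    by_cases c : fm w w' = 0
    · exact .inl ((t_comm c).map (QuotientGroup.mk' _))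
    · exact .inr (congrArg (QuotientGroup.mk (s := Subgroup.center _)) (t_br (sq c)))
  · obtain ⟨w, hw, rfl⟩ := k e
    obtain ⟨w', hw', rfl⟩ := k e'
    obtain ⟨u, a, b⟩ := ex_fm2 hw hw'
    refine ⟨QuotientGroup.mk (t u), e.trans ((QuotientGroup.mk' _).map_isConj (isConj_iff.2 ⟨t w * t u, ?_⟩)),
      t_nc (sq a), t_nc (sq b)⟩
    rw [t_br (sq a)]; group

/-- A short root element. -/
def x (K : Type) [Field K] : symplecticGroup (Fin 2) K :=
  ⟨fromBlocks !![1, 1; 0, 1] 0 0 !![1, 0; -1, 1], SymplecticGroup.mem_iff.2 (by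
    ext (i | i) (j | j) <;> fin_cases i <;> fin_cases j <;>
      simp [J, mul_apply, Fintype.sum_sum_type, Fin.sum_univ_two])⟩

/-- Another short root element. -/
def y (K : Type) [Field K] : symplecticGroup (Fin 2) K :=
  ⟨fromBlocks 1 !![0, -1; -1, 0] 0 1, SymplecticGroup.mem_iff.2 (by
    ext (i | i) (j | j) <;> fin_cases i <;> fin_cases j <;>
      simp [J, mul_apply, Fintype.sum_sum_type, Fin.sum_univ_two])⟩

/-- The first basis vector. -/
def e1 (K : Type) [Field K] : V K := Pi.single (.inl 0) 1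

theorem t_e1 : (t (e1 K)).1 = fromBlocks 1 !![1, 0; 0, 0] 0 1 := by
  ext (i | i) (j | j) <;> fin_cases i <;> fin_cases j <;> simp [t, E, e1, J, vecMulVec_apply]

theorem data (h3 : (3 : K) = 0) : x K * (x K * x K) = 1 ∧ y K * (y K * y K) = 1 ∧ x K * y K = t (e1 K) * y K * x K ∧
    x K * t (e1 K) = t (e1 K) * x K ∧ y K * t (e1 K) = t (e1 K) * y K := by
  refine ⟨Subtype.ext ?_, Subtype.ext ?_, Subtype.ext ?_, Subtype.ext ?_, Subtype.ext ?_⟩ <;>
    simp only [Submonoid.coe_mul, t_e1, x, y, fromBlocks_multiply, OneMemClass.coe_one] <;>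
    ext (i | i) (j | j) <;> fin_cases i <;> fin_cases j <;> simp <;> grind

end U42

/-- `z` = the image of a symplectic transvection `t_v : w ↦ w + c f(w, v) v`, the commutator of two short root elements.
Its conjugates are the `t_{g v}`, and `Sp₄` is transitive on non-zero vectors.  `t_v, t_w` commute if `f(v, w) = 0`; if
`f(v, w) = ± 1` they braid and do not commute modulo `± 1`.  Given `v, v' ≠ 0` there is `w` with
`f(v, w) ≠ 0 ≠ f(v', w)`. -/
theorem u42_data {K : Type} [Field K] [Fintype K] (hK : Fintype.card K = 3) :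
    ∃ x y : PSp 2 K, x ^ 3 = 1 ∧ y ^ 3 = 1 ∧ Commute x ⁅x, y⁆ ∧ Commute y ⁅x, y⁆ ∧ ⁅x, y⁆ ≠ 1 ∧ Braid ⁅x, y⁆ := by
  have h3 : (3 : K) = 0 := by simpa [hK] using FiniteField.cast_card_eq_zero K
  obtain ⟨a, b, c, d, e⟩ := U42.data h3
  let π : Matrix.symplecticGroup (Fin 2) K →* PSp 2 K := QuotientGroup.mk' _
  have v : U42.e1 K ≠ 0 := Pi.single_ne_zero_iff.2 one_ne_zero
  have z : ⁅π (U42.x K), π (U42.y K)⁆ = π (U42.t (U42.e1 K)) := by
    rw [← map_commutatorElement, commutatorElement_def, c]; group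
  have br := U42.braid hK v
  refine ⟨π (U42.x K), π (U42.y K), by rw [← map_pow, pow_three, a, map_one], by rw [← map_pow, pow_three, b, map_one],
    z ▸ Commute.map d π, z ▸ Commute.map e π, z ▸ fun r => ?_, z ▸ br⟩
  obtain ⟨_, -, n, -⟩ := br.conn _ _ (.refl _) (.refl _)
  exact n (by rw [show (QuotientGroup.mk (U42.t (U42.e1 K)) : PSp 2 K) = 1 from r]; exact Commute.one_left _)

variable {F : Type*} [Field F] {ι : Type} [Fintype ι] [DecidableEq ι]

/-- `g = ω + (1 - ω) u ψ = ω (1 + (ω² - 1) u ψ)` with `ψ u = 1`; the inverse is `ω² (1 + (ω - 1) u ψ)` -/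
def Hom3 (ω : F) (g : GL ι F) (u ψ : ι → F) : Prop :=
  ψ ⬝ᵥ u = 1 ∧ g.1 = ω • 1 + (1 - ω) • Matrix.vecMulVec u ψ

/-- With `e = u ψ`, `e' = u' ψ'`, `c = (ψ u') (ψ' u) = tr (e e')`, `l = ω² - 1`: `e e' e = c e`.  Commuting gives
`c = tr (e e' e e') = c²`.  The braid relation for `1 + l e`, `1 + l e'` says `(l + l² + l³ c) (e - e') = 0`, and
`1 + l + l² c = ω² - 3 ω² c`. -/
theorem Hom3.pair {ω : F} (hω : ω ^ 2 + ω + 1 = 0) (h3 : (3 : F) ≠ 0) {g g' : GL ι F} {u ψ u' ψ' : ι → F}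
    (h : Hom3 ω g u ψ) (h' : Hom3 ω g' u' ψ') :
    (Commute g g' → (ψ ⬝ᵥ u') * (ψ' ⬝ᵥ u) = 0 ∨ (ψ ⬝ᵥ u') * (ψ' ⬝ᵥ u) = 1) ∧
      (g * g' * g = g' * g * g' → g = g' ∨ 3 * ((ψ ⬝ᵥ u') * (ψ' ⬝ᵥ u)) = 1) := by
  have m : 1 - ω ≠ 0 := fun r => h3 (by linear_combination hω + (ω + 2) * r)
  have w0 : ω ≠ 0 := fun r => by simp [r] at hω
  set c := (ψ ⬝ᵥ u') * (ψ' ⬝ᵥ u) with hc
  have e1 : Matrix.vecMulVec u ψ * Matrix.vecMulVec u ψ = Matrix.vecMulVec u ψ := by
    rw [Matrix.vecMulVec_mul_vecMulVec, h.1, one_smul]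
  have e2 : Matrix.vecMulVec u' ψ' * Matrix.vecMulVec u' ψ' = Matrix.vecMulVec u' ψ' := by
    rw [Matrix.vecMulVec_mul_vecMulVec, h'.1, one_smul]
  have e3 : Matrix.vecMulVec u ψ * (Matrix.vecMulVec u' ψ' * Matrix.vecMulVec u ψ) = c • Matrix.vecMulVec u ψ := by
    simp only [Matrix.vecMulVec_mul_vecMulVec, Matrix.vecMulVec_smul, mul_smul_comm, smul_smul, hc, mul_comm]
  have e4 : Matrix.vecMulVec u' ψ' * (Matrix.vecMulVec u ψ * Matrix.vecMulVec u' ψ') = c • Matrix.vecMulVec u' ψ' := by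
    simp only [Matrix.vecMulVec_mul_vecMulVec, Matrix.vecMulVec_smul, mul_smul_comm, smul_smul, hc, mul_comm]
  have n : Matrix.vecMulVec u ψ ≠ 0 := fun r => by
    have := congrArg (fun m => ψ ⬝ᵥ m *ᵥ u) r
    simp [Matrix.vecMulVec_mulVec, h.1] at this
  have g1 := h.2
  have g2 := h'.2
  generalize Matrix.vecMulVec u ψ = e at *
  generalize Matrix.vecMulVec u' ψ' = e' at *
  refine ⟨fun k => ?_, fun k => ?_⟩
  · have k1 : g.1 * g'.1 = g'.1 * g.1 := congrArg Units.val k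
    rw [g1, g2] at k1
    have k2 : e * e' = e' * e := smul_right_injective _ (mul_ne_zero m m) (by
      simp only [mul_add, add_mul, smul_mul_assoc, mul_smul_comm, mul_one, one_mul] at k1
      linear_combination (norm := module) k1)
    have k3 : e * e' = c • e := by rw [← e3, ← k2, ← mul_assoc, e1]
    have k4 : c • c • e = c • e := by
      have : e * e' * (e * e') = e * e' := by
        rw [mul_assoc, ← mul_assoc e', ← k2, mul_assoc, e2, ← mul_assoc, e1]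
      rwa [k3, smul_mul_assoc, mul_smul_comm, e1] at this
    rw [smul_smul] at k4
    have := smul_left_injective F n k4
    exact (mul_eq_zero.1 (show c * (c - 1) = 0 by linear_combination this)).imp_right sub_eq_zero.1
  · have k1 : g.1 * g'.1 * g.1 = g'.1 * g.1 * g'.1 := congrArg Units.val k
    rw [g1, g2] at k1
    have k2 : ((1 - ω) * ω * (1 - 3 * c)) • (e - e') = 0 := by
      simp only [mul_add, add_mul, smul_mul_assoc, mul_smul_comm, mul_one, one_mul, mul_assoc, e1, e2, e3, e4] at k1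
      have : ((1 - ω) * ω * (1 - 3 * c)) = ω ^ 2 * (1 - ω) + ω * (1 - ω) ^ 2 + (1 - ω) ^ 3 * c := by
        linear_combination (-(1 - ω) * c) * hω
      rw [this]
      linear_combination (norm := module) k1
    refine (smul_eq_zero.1 k2).symm.imp (fun r => Units.ext (by rw [g1, g2, sub_eq_zero.1 r])) fun r => ?_
    exact (sub_eq_zero.1 ((mul_eq_zero.1 r).resolve_left (mul_ne_zero m w0))).symm

theorem Hom3.conj {ω : F} {g : GL ι F} {u ψ : ι → F} (h : Hom3 ω g u ψ) (k : GL ι F) :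
    Hom3 ω (k * g * k⁻¹) (k.1 *ᵥ u) (ψ ᵥ* (k⁻¹).1) := by
  refine ⟨by rw [← Matrix.dotProduct_mulVec, Matrix.mulVec_mulVec, Units.inv_mul, Matrix.one_mulVec, h.1], ?_⟩
  rw [Units.val_mul, Units.val_mul, h.2, mul_add, add_mul, mul_smul_comm, mul_smul_comm, smul_mul_assoc, smul_mul_assoc,
    mul_one, Units.mul_inv, Matrix.mul_vecMulVec, Matrix.vecMulVec_mul]

theorem Hom3.inv {ω : F} (hω : ω ^ 2 + ω + 1 = 0) {g : GL ι F} {u ψ : ι → F} (h : Hom3 ω g u ψ) :
    (g⁻¹).1 = ω ^ 2 • 1 + (1 - ω ^ 2) • Matrix.vecMulVec u ψ := by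
  have e1 : Matrix.vecMulVec u ψ * Matrix.vecMulVec u ψ = Matrix.vecMulVec u ψ := by
    rw [Matrix.vecMulVec_mul_vecMulVec, h.1, one_smul]
  refine Units.inv_eq_of_mul_eq_one_right ?_
  simp only [h.2, mul_add, add_mul, smul_mul_assoc, mul_smul_comm, mul_one, one_mul, e1]
  match_scalars
  · linear_combination (ω - 1) * hω
  · linear_combination (1 - ω) * hω

theorem Hom3.smul {ω : F} {g : GL ι F} {u ψ : ι → F} (h : Hom3 ω g u ψ) {a : F} (ha : a ≠ 0) :
    Hom3 ω g (a⁻¹ • u) (a • ψ) :=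
  ⟨by simp [h.1, ha], by rw [h.2, Matrix.smul_vecMulVec, Matrix.vecMulVec_smul, smul_smul a⁻¹, inv_mul_cancel₀ ha, one_smul]⟩

theorem Braid.gen {T : Type*} [Group T] {z : T} (hz : Braid z) {d : T} (e : IsConj z d) :
    d ∈ Subgroup.closure {d | IsConj z d ∧ ¬ Commute z d} := by
  have br : ∀ {d}, IsConj z d → ¬ Commute z d → z * d * z = d * z * d := fun e n =>
    (hz.pair _ _ (.refl _) e).resolve_left n
  have cj : ∀ {d}, IsConj z d → ∀ g, IsConj z (g * d * g⁻¹) := fun e g => e.trans (isConj_iff.2 ⟨g, rfl⟩)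
  by_cases c : Commute z d
  swap
  · exact Subgroup.subset_closure ⟨e, c⟩
  obtain ⟨a, ea, n1, n2⟩ := hz.conn _ _ (.refl _) e
  have m : a ∈ Subgroup.closure {d | IsConj z d ∧ ¬ Commute z d} := Subgroup.subset_closure ⟨ea, n1⟩
  by_cases q : Commute z (a * d * a⁻¹)
  · refine (n2 ?_).elim
    have q1 : Commute d (a⁻¹ * z * a) := by
      have := (q.conj a⁻¹).symm
      rwa [inv_inv, show a⁻¹ * (a * d * a⁻¹) * a = d by group] at this
    have q2 : a = z⁻¹ * (a⁻¹ * z * a) * z := by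
      rw [show z⁻¹ * (a⁻¹ * z * a) * z = z⁻¹ * a⁻¹ * (z * a * z) by group, br ea n1]; group
    rw [q2]
    exact (c.symm.inv_right.mul_right q1).mul_right c.symm
  · have := mul_mem (mul_mem (inv_mem m) (Subgroup.subset_closure (k := {d | IsConj z d ∧ ¬ Commute z d}) ⟨cj e a, q⟩)) m
    simpa [mul_assoc] using this

/-- Let `D` be the class of `z` in `P`, `D₀` the elements of `D` not commuting with `z`; every `d ∈ D` has
`Hom3 ω d (u d) (ψ d)`.
*Generation.*  `closure D = P` (`QS.le_of_normal`).  For `d ∈ D₀`, `d' = z d z⁻¹ ∈ D₀` and the braid relation gives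
`z = d d' d⁻¹`.  If `d ∈ D` commutes with `z`, take `e` from `conn`; `e d e⁻¹ ∈ D₀` (if it commuted with `z`, `d` would
commute with `e⁻¹ z e = z e z⁻¹`, hence with `e`).  So `closure D₀ = P`.
*Gram matrix.*  All `c(d, d') ∈ {0, 1, 1/3}` (`pair`), and `c(z, d) = 1/3` on `D₀`.  Rescale so that `ψ z (u d) = 1`,
`ψ d (u z) = 1/3` on `D₀`.  For `d, d' ∈ D₀` let `T = ψ d (u d') / 3`, `T' = ψ d' (u d) / 3`, `l = ω² - 1`, `l' = ω - 1`.
Expanding `c(z d z⁻¹, d') = tr ((1 + l e_z) e_d (1 + l' e_z) e_{d'})` gives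
`A := l T + l' T' = c(z d z⁻¹, d') - c(d, d') - 1/3`, and likewise `B := l' T + l T' = c(z⁻¹ d z, d') - c(d, d') - 1/3`.
With `δ = ω² - ω`: `9 T = δ (l A - l' B)`, `9 T' = - δ (l' A - l B)`.  `(1/3, 1/3) ∈ R` since `1/3` is an integer modulo
`p`.  So `(T, T') ∈ R`, and `cyc` applies. -/
theorem trIn_of_braid [Finite F] {P : Subgroup (GL ι F)} (h : QS P) {ω : F} (hω : ω ^ 2 + ω + 1 = 0)
    (h3 : (3 : F) ≠ 0) {z : P} (hz : Braid z) {u ψ : ι → F} (e : Hom3 ω z.1 u ψ) : TrIn P ω (ω ^ 2) := by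
  intro R r1 r2 g hg
  haveI := Fintype.ofFinite F
  obtain ⟨t, ht, rt⟩ : ∃ t : F, 3 * t = 1 ∧ (t, t) ∈ R := by
    refine ⟨3 ^ (Fintype.card F - 2), ?_, pow_mem (natCast_mem R 3) _⟩
    rw [← pow_succ', show Fintype.card F - 2 + 1 = Fintype.card F - 1 by have := Fintype.one_lt_card (α := F); omega]
    exact FiniteField.pow_card_sub_one_eq_one _ h3
  have cv : ∀ {d d' : P} {a α b β : ι → F}, IsConj z d → IsConj z d' → Hom3 ω d.1 a α → Hom3 ω d'.1 b β →
      ((α ⬝ᵥ b) * (β ⬝ᵥ a), (α ⬝ᵥ b) * (β ⬝ᵥ a)) ∈ R := fun {d d' a α b β} e e' k k' => by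
    have p := k.pair hω h3 k'
    have c : Commute d.1 d'.1 → ((α ⬝ᵥ b) * (β ⬝ᵥ a), (α ⬝ᵥ b) * (β ⬝ᵥ a)) ∈ R := fun c => by
      rcases p.1 c with r | r <;> rw [r]
      exacts [zero_mem R, one_mem R]
    rcases hz.pair d d' e e' with q | q
    · exact c (q.map P.subtype)
    rcases p.2 (congrArg Subtype.val q) with r | r
    · exact c (r ▸ Commute.refl _)
    · rwa [mul_left_cancel₀ h3 (r.trans ht.symm)]
  have ex : ∀ d : {d : P // IsConj z d ∧ ¬ Commute z d}, ∃ a α : ι → F,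
      Hom3 ω d.1.1 a α ∧ ψ ⬝ᵥ a = 1 ∧ α ⬝ᵥ u = t := by
    rintro ⟨d, e1, n⟩
    obtain ⟨k, rfl⟩ := isConj_iff.1 e1
    have k1 := e.conj k.1
    have := ((e.pair hω h3 k1).2 (congrArg Subtype.val ((hz.pair _ _ (.refl _) e1).resolve_left n))).resolve_left
      fun r => n (by rw [← show z = k * z * k⁻¹ from Subtype.ext r])
    have a0 : ψ ⬝ᵥ k.1.1 *ᵥ u ≠ 0 := fun r => by simp [r] at this
    exact ⟨_, _, k1.smul a0, by rw [dotProduct_smul, smul_eq_mul, inv_mul_cancel₀ a0],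
      by rw [smul_dotProduct, smul_eq_mul, mul_left_cancel₀ h3 (this.trans ht.symm)]⟩
  choose U Ψ h1 h2 h4 using ex
  have l1 : (ω ^ 2 - 1, ω - 1) ∈ R := sub_mem r2 (one_mem R)
  have l2 : (ω - 1, ω ^ 2 - 1) ∈ R := sub_mem r1 (one_mem R)
  refine cyc U Ψ R (S := Subtype.val '' {d : P | IsConj z d ∧ ¬ Commute z d}) (fun d d' => ?_) ?_ g ?_
  · have c0 := cv d.2.1 d'.2.1 (h1 d) (h1 d')
    have c1 := cv (d := z * d.1 * z⁻¹) (d.2.1.trans (isConj_iff.2 ⟨z, rfl⟩)) d'.2.1 ((h1 d).conj z.1) (h1 d')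
    have c2 := cv (d := z⁻¹ * d.1 * z⁻¹⁻¹) (d.2.1.trans (isConj_iff.2 ⟨z⁻¹, rfl⟩)) d'.2.1 ((h1 d).conj z.1⁻¹) (h1 d')
    rw [inv_inv] at c2
    simp only [e.inv hω, e.2, Matrix.add_mulVec, Matrix.vecMul_add, Matrix.smul_mulVec, Matrix.vecMul_smul,
      Matrix.one_mulVec, Matrix.vecMul_one, Matrix.vecMulVec_mulVec, Matrix.vecMul_vecMulVec, h2, h4, op_smul_eq_smul,
      add_dotProduct, dotProduct_add, smul_dotProduct, dotProduct_smul, smul_eq_mul, one_smul, mul_one] at c1 c2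
    have := mul_mem (mul_mem rt (sub_mem r2 r1))
      (sub_mem (mul_mem l1 (sub_mem (sub_mem c1 c0) rt)) (mul_mem l2 (sub_mem (sub_mem c2 c0) rt)))
    convert this using 1
    ext <;> simp only [Prod.mk_mul_mk, Prod.mk_sub_mk] <;> grind
  · rintro _ ⟨d, hd, rfl⟩
    refine ⟨⟨d, hd⟩, ω, ω ^ 2, ω ^ 2 - 1, ω - 1, r1, r2, l1, l2, ?_, ?_⟩
    · rw [(h1 ⟨d, hd⟩).2]
      match_scalars
      · ring
      · linear_combination (1 - ω) * hω
    · rw [(h1 ⟨d, hd⟩).inv hω]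
      match_scalars
      · ring
      · linear_combination (1 - ω) * hω
  · have : P ≤ (Subgroup.closure {d : P | IsConj z d}).map P.subtype := by
      refine h.le_of_normal (Subgroup.map_subtype_le _) ?_ fun l => ?_
      · rintro k hk _ ⟨x, hx, rfl⟩
        refine ⟨⟨k, hk⟩ * x * ⟨k, hk⟩⁻¹, ?_, rfl⟩
        have : (Subgroup.closure {d : P | IsConj z d}).map (MulAut.conj (⟨k, hk⟩ : P)).toMonoidHom ≤
            Subgroup.closure {d : P | IsConj z d} := by
          rw [MonoidHom.map_closure]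
          refine Subgroup.closure_mono ?_
          rintro _ ⟨d, hd, rfl⟩
          exact IsConj.trans hd (isConj_iff.2 ⟨_, rfl⟩)
        exact this ⟨x, hx, rfl⟩
      · obtain ⟨a, -, n, -⟩ := hz.conn _ _ (.refl _) (.refl _)
        exact n (Subtype.ext (comm_of_scalar (l ⟨z, Subgroup.subset_closure (IsConj.refl z), rfl⟩) a.1).symm)
    obtain ⟨x, hx, rfl⟩ := this hg
    have := Subgroup.mem_map_of_mem P.subtype ((Subgroup.closure_le _).2 (fun d hd => hz.gen hd) hx)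
    rwa [MonoidHom.map_closure] at this

/-- `u42_data`, `PR.heis_lift`, `heis_shape`.  `Braid` lifts: conjugates of `z` have order three; use `PR.isConj`,
`PR.commute`, and `lift_unique` for `(d d') d (d d')⁻¹` and `d'`. -/
theorem Cov.u42 [Finite F] {P : Subgroup (GL (Fin 4) F)} {K : Type} [Field K] [Fintype K] (hK : Fintype.card K = 3)
    {π : P →* PSp 2 K} (h : Cov P π) (h3 : (3 : F) ≠ 0) : ∃ ω : F, ω ^ 2 + ω + 1 = 0 ∧ TrIn P ω (ω ^ 2) := by
  obtain ⟨x, y, a1, a2, a3, a4, a5, br⟩ := u42_data hK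
  obtain ⟨x, y, rfl, rfl, -, -, b1, b2, b3⟩ := h.pr.heis_lift (by decide) a1 a2 a3 a4
  rw [← map_commutatorElement] at a5 br
  have co : ⁅x.1, y.1⁆ = (⁅x, y⁆ : P).1 := (map_commutatorElement P.subtype x y).symm
  obtain ⟨-, ω, u, ψ, hω, e⟩ := heis_shape (x := x.1) (y := y.1) (m := 3) (by decide) (by exact_mod_cast h3)
    (co ▸ congrArg Subtype.val b1) (co ▸ b2.map P.subtype) (co ▸ b3.map P.subtype)
    (co ▸ fun r => a5 (by rw [show ⁅x, y⁆ = 1 from Subtype.ext r, map_one]))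
  rw [co] at e
  generalize ⁅x, y⁆ = z at *
  have o : ∀ {d}, IsConj z d → d ^ 3 = 1 := fun e => by
    obtain ⟨g, rfl⟩ := isConj_iff.1 e
    rw [conj_pow, b1, mul_one, mul_inv_cancel]
  have c : Nat.Coprime 3 (Fintype.card (Fin 4)) := by decide
  refine ⟨ω, hω, trIn_of_braid h.qs hω h3 (z := z) ⟨fun d d' e e' => ?_, fun d d' e e' => ?_⟩ e⟩
  · refine (br.pair _ _ (π.map_isConj e) (π.map_isConj e')).imp (h.pr.commute (o e) c) fun r => ?_
    have := h.pr.lift_unique (g := d * d' * d * (d * d')⁻¹) (g' := d')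
      (by rw [map_mul, map_mul, map_inv, map_mul, r]; group) (o (e.trans (isConj_iff.2 ⟨_, rfl⟩))) (o e') c
    rw [mul_inv_eq_iff_eq_mul.1 this, mul_assoc]
  · obtain ⟨a, ea, n1, n2⟩ := br.conn _ _ (π.map_isConj e) (π.map_isConj e')
    obtain ⟨g, rfl⟩ := isConj_iff.1 ea
    obtain ⟨g, rfl⟩ := h.surj g
    rw [← map_inv, ← map_mul, ← map_mul] at n1 n2
    exact ⟨_, isConj_iff.2 ⟨g, rfl⟩, fun r => n1 (r.map π), fun r => n2 (r.map π)⟩

end Cfsg.Lib.Q4
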